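import Cfsg.Agent.P4n.Defs
import Cfsg.Agent.ChS.NB
import Cfsg.Agent.ChS.NC

/-! Certificates. See stubs/Cfsg/Agent/P4n/PLAN.md, section CA. -/

set_option autoImplicit false
set_option maxRecDepth 100000

namespace Cfsg.Agent.P4n

open Equiv MulAction ChS

namespace CAH

/-- the goal in degree `n` -/
def Gl (n : ℕ) : Prop := ∃ r, Cert n r ∧ (r - 1) * (8 * (Nat.log 2 n + 1) - 15) ≤ n

theorem prime_of {p : ℕ} (h2 : 2 ≤ p) (h : NB.pr p 70 2 = true) : p.Prime :=
  Nat.prime_def_le_sqrt.2 ⟨h2, fun e h1 h3 => NB.pr_ok p _ _ h e h1 (Nat.le_sqrt.1 h3)⟩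

/-- the test for one certificate -/
def ok (n r q : ℕ) : Bool :=
  (n - r) % q == 0 && (decide ((q = 1 ∧ 3 ≤ r) ∨ (q ≤ 2 ∧ r = 4) ∨ (q < r ∧ 5 ≤ r)) &&
    (decide ((r - 1) * (8 * (n.log2 + 1) - 15) ≤ n) && NB.pr ((n - r) / q) 70 2))

theorem ok_gl {n r q : ℕ} (h1 : 600 ≤ n) (hr : r ≤ 16) (q1 : 1 ≤ q) (q2 : q ≤ 16)
    (h : ok n r q = true) : Gl n := by
  simp only [ok, Bool.and_eq_true, beq_iff_eq, decide_eq_true_eq] at h
  obtain ⟨a, c, d, b⟩ := h
  obtain ⟨p, hp⟩ := Nat.dvd_of_mod_eq_zero a
  rw [hp, Nat.mul_div_cancel_left _ q1] at b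
  have hq : 17 ≤ p := by
    by_contra k
    have := Nat.mul_le_mul q2 (show p ≤ 16 by omega)
    omega
  rw [Nat.log2_eq_log_two] at d
  exact ⟨r, ⟨p, q, prime_of (by omega) b, by omega, q1, by omega, by omega, c⟩, d⟩

/-- search for the number of cycles -/
def sq (n r : ℕ) : ℕ → Bool
  | 0 => false
  | q + 1 => sq n r q || ok n r (q + 1)

/-- search for the number of fixed points -/
def sr (n : ℕ) : ℕ → Bool
  | 0 => false
  | k + 1 => sq n (16 - k) (15 - k) || sr n k

/-- all degrees in an interval -/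
def al (a : ℕ) : ℕ → Bool
  | 0 => true
  | k + 1 => sr (a + k) 14 && al a k

theorem sq_ok (n r : ℕ) : ∀ k, sq n r k = true → ∃ q, 1 ≤ q ∧ q ≤ k ∧ ok n r q = true := by
  intro k
  induction k with
  | zero => intro h; exact absurd h (by simp [sq])
  | succ k ih =>
    intro h
    rw [sq, Bool.or_eq_true] at h
    rcases h with h | h
    · obtain ⟨q, a, b, c⟩ := ih h
      exact ⟨q, a, by omega, c⟩
    · exact ⟨_, by omega, le_rfl, h⟩

theorem sr_ok {n : ℕ} (h1 : 600 ≤ n) : ∀ k, sr n k = true → Gl n := by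
  intro k
  induction k with
  | zero => intro h; exact absurd h (by simp [sr])
  | succ k ih =>
    intro h
    rw [sr, Bool.or_eq_true] at h
    rcases h with h | h
    · obtain ⟨q, a, b, c⟩ := sq_ok _ _ _ h
      exact ok_gl h1 (by omega) a (by omega) c
    · exact ih h

theorem al_ok (a : ℕ) : ∀ k, al a k = true → ∀ n, a ≤ n → n < a + k → sr n 14 = true := by
  intro k
  induction k with
  | zero => intro _ n h1 h2; omega
  | succ k ih =>
    intro h n h1 h2
    rw [al, Bool.and_eq_true] at h
    rcases (Nat.lt_succ_iff.1 h2).eq_or_lt with rfl | h3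
    exacts [h.1, ih h.2 n h1 h3]

theorem c1 : al 600 900 = true := by decide +kernel
theorem c2 : al 1500 900 = true := by decide +kernel
theorem c3 : al 2400 900 = true := by decide +kernel
theorem c4 : al 3300 796 = true := by decide +kernel

theorem low (n : ℕ) (h1 : 600 ≤ n) (h2 : n < 4096) : Gl n := by
  refine sr_ok h1 14 ?_
  by_cases a : n < 1500
  · exact al_ok _ _ c1 n h1 a
  by_cases b : n < 2400
  · exact al_ok _ _ c2 n (by omega) b
  by_cases c : n < 3300
  · exact al_ok _ _ c3 n (by omega) c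
  exact al_ok _ _ c4 n (by omega) h2

theorem prime_of' {p : ℕ} (h5 : 5 ≤ p) (h : p < 530000) (hg : Nat.gcd p (Nat.factorial 730) = 1) :
    p.Prime := by
  by_contra k
  have h1 := Nat.minFac_sq_le_self (by omega) k
  have h2 := Nat.minFac_prime (show p ≠ 1 by omega)
  have h3 : p.minFac ≤ 730 := by nlinarith
  have := Nat.dvd_gcd (Nat.minFac_dvd p) (h2.dvd_factorial.2 h3)
  rw [hg] at this
  exact h2.one_lt.ne' (Nat.dvd_one.1 this)

/-- the checker for the chain -/
def chain (F : ℕ) : ℕ → List ℕ → Bool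
  | p, [] => decide (530000 ≤ p + 3)
  | p, q :: l => decide (5 ≤ p) && Nat.gcd p F == 1 &&
      decide ((q + 1 - p) * (8 * (Nat.log2 (q + 2) + 1) - 15) ≤ p + 3) && chain F q l

theorem chain_sound (l : List ℕ) : ∀ p, chain (Nat.factorial 730) p l = true →
    ∀ n, p + 3 ≤ n → n < 530000 → Gl n := by
  induction l with
  | nil =>
    intro p h n h1 h2
    simp only [chain, decide_eq_true_eq] at h
    omega
  | cons q l ih =>
    intro p h n h1 h2
    simp only [chain, Bool.and_eq_true, decide_eq_true_eq, beq_iff_eq, Nat.log2_eq_log_two] at h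
    obtain ⟨⟨⟨h5, hg⟩, hb⟩, hc⟩ := h
    by_cases k : q + 3 ≤ n
    · exact ih q hc n k h2
    refine ⟨n - p, ⟨p, 1, prime_of' h5 (by omega) hg, h5, le_rfl, by omega, by omega,
      .inl ⟨rfl, by omega⟩⟩, ?_⟩
    have hl : Nat.log 2 n ≤ Nat.log 2 (q + 2) := Nat.log_mono_right (by omega)
    exact (Nat.mul_le_mul (show n - p - 1 ≤ q + 1 - p by omega) (by omega)).trans (hb.trans h1)

/-- the primes after 4093 -/
def primes : List ℕ :=
  [4133, 4177, 4219, 4261, 4297, 4339, 4373, 4421, 4463, 4507, 4549, 4597, 4643, 4691, 4733,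
   4783, 4831, 4877, 4919, 4973, 5023, 5077, 5119, 5171, 5227, 5281, 5333, 5387, 5443, 5503,
   5563, 5623, 5683, 5743, 5801, 5861, 5923, 5987, 6053, 6113, 6173, 6229, 6287, 6353, 6421,
   6491, 6553, 6619, 6691, 6763, 6833, 6907, 6983, 7057, 7129, 7207, 7283, 7351, 7417, 7499,
   7577, 7649, 7727, 7793, 7879, 7963, 8039, 8123, 8191, 8273, 8353, 8431, 8513, 8599, 8681,
   8761, 8849, 8933, 9013, 9103, 9187, 9277, 9371, 9463, 9551, 9643, 9739, 9833, 9931, 10009,
   10111, 10211, 10313, 10399, 10501, 10607, 10711, 10799, 10909, 11003, 11113, 11213, 11321,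
   11423, 11527, 11633, 11743, 11863, 11981, 12101, 12211, 12329, 12451, 12577, 12703, 12829,
   12959, 13063, 13187, 13313, 13441, 13577, 13711, 13841, 13967, 14107, 14251, 14389, 14533,
   14669, 14813, 14957, 15107, 15259, 15413, 15569, 15727, 15887, 16033, 16193, 16349, 16493,
   16649, 16787, 16943, 17099, 17257, 17419, 17581, 17747, 17911, 18077, 18233, 18401, 18553,
   18719, 18869, 19037, 19213, 19391, 19571, 19753, 19937, 20123, 20297, 20483, 20663, 20857,
   21031, 21227, 21419, 21617, 21821, 22027, 22229, 22433, 22643, 22853, 23063, 23279, 23497,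
   23719, 23929, 24151, 24379, 24593, 24821, 25037, 25261, 25471, 25703, 25943, 26189, 26437,
   26687, 26927, 27179, 27431, 27691, 27953, 28211, 28477, 28729, 28979, 29251, 29527, 29803,
   30071, 30347, 30631, 30911, 31193, 31489, 31771, 32069, 32371, 32653, 32939, 33223, 33503,
   33797, 34061, 34361, 34651, 34949, 35257, 35543, 35851, 36161, 36479, 36793, 37117, 37441,
   37747, 38069, 38393, 38729, 39047, 39383, 39727, 40063, 40387, 40739, 41081, 41443, 41801,
   42169, 42533, 42901, 43271, 43651, 44029, 44417, 44809, 45197, 45589, 45989, 46381, 46771,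
   47161, 47569, 47981, 48397, 48823, 49253, 49681, 50119, 50551, 50993, 51439, 51893, 52321,
   52783, 53239, 53699, 54167, 54631, 55109, 55589, 56053, 56543, 57041, 57529, 58031, 58543,
   59053, 59567, 60091, 60617, 61151, 61687, 62219, 62761, 63313, 63863, 64403, 64969, 65521,
   66047, 66587, 67129, 67679, 68227, 68777, 69341, 69911, 70487, 71059, 71633, 72223, 72817,
   73417, 74021, 74623, 75227, 75833, 76441, 77069, 77699, 78317, 78941, 79589, 80239, 80897,
   81563, 82231, 82903, 83579, 84263, 84947, 85643, 86341, 87049, 87767, 88471, 89189, 89923,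
   90659, 91397, 92143, 92899, 93637, 94399, 95177, 95959, 96749, 97547, 98347, 99149, 99961,
   100769, 101599, 102437, 103237, 104089, 104947, 105769, 106637, 107509, 108379, 109267,
   110161, 111053, 111959, 112877, 113797, 114713, 115657, 116593, 117541, 118493, 119447,
   120431, 121421, 122401, 123407, 124367, 125387, 126421, 127453, 128489, 129539, 130589,
   131591, 132607, 133633, 134639, 135671, 136711, 137743, 138799, 139871, 140939, 142019,
   143113, 144203, 145307, 146423, 147557, 148693, 149839, 150991, 152147, 153319, 154501,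
   155693, 156887, 158077, 159293, 160507, 161743, 162989, 164251, 165523, 166799, 168089,
   169373, 170669, 171947, 173273, 174613, 175963, 177323, 178693, 180077, 181459, 182857,
   184273, 185699, 187133, 188579, 190031, 191497, 192979, 194471, 195977, 197479, 198997,
   200513, 202063, 203627, 205201, 206783, 208379, 209987, 211597, 213229, 214867, 216523,
   218191, 219881, 221581, 223291, 224993, 226697, 228451, 230213, 231967, 233759, 235559,
   237379, 239201, 241051, 242911, 244787, 246683, 248593, 250501, 252431, 254383, 256349,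
   258331, 260329, 262217, 264127, 266053, 267961, 269897, 271861, 273827, 275813, 277813,
   279823, 281857, 283909, 285979, 288061, 290161, 292267, 294397, 296519, 298681, 300857,
   303049, 305243, 307451, 309677, 311897, 314161, 316453, 318751, 321073, 323413, 325769,
   328129, 330509, 332903, 335323, 337759, 340211, 342691, 345181, 347671, 350191, 352741,
   355307, 357883, 360461, 363067, 365699, 368363, 371029, 373721, 376417, 379163, 381917,
   384701, 387503, 390323, 393161, 396029, 398917, 401827, 404713, 407657, 410629, 413597,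
   416593, 419623, 422657, 425713, 428809, 431933, 435059, 438233, 441421, 444641, 447883,
   451109, 454387, 457697, 461017, 464381, 467749, 471161, 474583, 478039, 481513, 485021,
   488539, 492103, 495679, 499283, 502921, 506573, 510253, 513943, 517639, 521401, 524983,
   528559, 532199]

theorem okc : chain (Nat.factorial 730) 4093 primes = true := by decide +kernel

theorem sq_le (L : ℕ) (h : 19 ≤ L) : (30 * (L + 1) + 1) ^ 2 ≤ 2 ^ L := by
  induction L, h using Nat.le_induction with
  | base => norm_num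
  | succ k hk ih => rw [pow_succ 2 k]; nlinarith

end CAH

theorem cert_mid (n : ℕ) (h1 : 600 ≤ n) (h2 : n < 530000) :
    ∃ r, Cert n r ∧ (r - 1) * (8 * (Nat.log 2 n + 1) - 15) ≤ n := by
  by_cases h : n < 4096
  · exact CAH.low n h1 h
  · exact CAH.chain_sound _ _ CAH.okc n (by omega) h2

theorem cert_large (n : ℕ) (h1 : 530000 ≤ n) :
    ∃ r, Cert n r ∧ 10 * (r * (Nat.log 2 n + 1)) ≤ n := by
  have s1 : Nat.sqrt n * Nat.sqrt n ≤ n := Nat.sqrt_le n
  have s2 : n < (Nat.sqrt n + 1) * (Nat.sqrt n + 1) := Nat.lt_succ_sqrt n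
  have s3 : 512 ≤ Nat.sqrt n := Nat.le_sqrt.2 (le_trans (by norm_num) h1)
  have l1 : 19 ≤ Nat.log 2 n := Nat.le_log_of_pow_le (by decide) (le_trans (by norm_num) h1)
  have l2 := (CAH.sq_le _ l1).trans (Nat.pow_log_le_self 2 (by omega : n ≠ 0))
  generalize Nat.sqrt n = s at s1 s2 s3
  have l3 : 30 * (Nat.log 2 n + 1) ≤ s := by nlinarith
  obtain ⟨p, hp, p1, p2⟩ := Nat.exists_prime_lt_and_le_two_mul s (by omega)
  have q1 : n / p ≤ s := Nat.lt_succ_iff.1 ((Nat.div_lt_iff_lt_mul hp.pos).2 (by nlinarith))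
  have q2 : 256 ≤ n / p := (Nat.le_div_iff_mul_le hp.pos).2 (by nlinarith)
  have q3 := Nat.div_add_mod' n p
  have q4 := Nat.mod_lt n hp.pos
  have key : ∀ r, r ≤ 3 * s → 10 * (r * (Nat.log 2 n + 1)) ≤ n := fun r hr => by
    have a1 : r * (Nat.log 2 n + 1) ≤ 3 * s * (Nat.log 2 n + 1) := Nat.mul_le_mul_right _ hr
    generalize Nat.log 2 n = L at *
    nlinarith
  generalize n / p = q at q1 q2 q3
  generalize n % p = r at q3 q4
  by_cases c : q < r
  · exact ⟨r, ⟨p, q, hp, by omega, by omega, by omega, q3.symm, .inr (.inr ⟨c, by omega⟩)⟩,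
      key r (by omega)⟩
  · obtain ⟨q, rfl⟩ : ∃ q', q = q' + 1 := ⟨q - 1, by omega⟩
    exact ⟨r + p, ⟨p, q, hp, by omega, by omega, by omega, by rw [← q3]; ring,
      .inr (.inr ⟨by omega, by omega⟩)⟩, key _ (by omega)⟩

end Cfsg.Agent.P4n
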