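import Mathlib
import Cfsg.Agent.ChS.Defs

/-! Definitions for S0725 (order of a primitive group). See stubs/Cfsg/Agent/P4n/PLAN.md. -/

set_option autoImplicit false

namespace Cfsg.Agent.P4n

open Equiv MulAction ChS

/-- induction hypothesis: the bound for all degrees below `n` -/
def IH4 (n : ℕ) : Prop :=
  ∀ (β : Type) [Fintype β] [DecidableEq β] (X : Subgroup (Perm β)), Fintype.card β < n →
    IsPreprimitive X β → ¬ alternatingGroup β ≤ X → Nat.card X ≤ 4 ^ Fintype.card β

/-- a primitive, not 2-transitive group of degree `n` has minimal degree `> k` -/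
def Adm (n k : ℕ) : Prop := 4 * k ^ 2 + 3 < n + 6 * k

/-- upper bound (exact for enough fuel) for the exponent of `p` in `m !` -/
def vf (p : ℕ) : ℕ → ℕ → ℕ
  | 0, m => m / (p - 1)
  | f + 1, m => if m < p then 0 else m / p + vf p f (m / p)

/-- the least multiple of `p` exceeding `k` -/
def rnd (p k : ℕ) : ℕ := p * (k / p + 1)

/-- lower bound for all supports but one -/
def MM (p k : ℕ) : ℕ := max (p * p) (rnd p k)

/-- lower bound for the exceptional support -/
def EE (p k : ℕ) : ℕ := min (max (3 * p) (rnd p k)) (MM p k)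

/-- main part of the exponent of `p` -/
def ex0 (n k p : ℕ) : ℕ := vf p 20 (n / p) + (n + MM p k - EE p k) / MM p k

/-- the exceptional primes `p = n` and `p = n / 2` -/
def exc (n : ℕ) : ℕ := (if n.Prime then n else 1) * (if (n / 2).Prime then n / 2 else 1)

/-- main part of the bound -/
def Vb (n k : ℕ) : ℕ := ∏ p ∈ (Finset.range (n + 1)).filter Nat.Prime, p ^ ex0 n k p

/-- bound for the order of a primitive, not 2-transitive group of degree `n` -/
def Ub (n k : ℕ) : ℕ := exc n * Vb n k

/-- `x` bounds the order of the primitive group induced on `s` blocks of size `b` -/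
def XB (b s x : ℕ) : Prop :=
  s.factorial ≤ x ∨ (4 ^ s ≤ x ∧ ∃ p, p.Prime ∧ b < p ∧ p ≤ s ∧ p * b < mu b s)

/-- order bound for a group fixing all blocks (size `b`) in which any `T` points are a base -/
def KB (b T : ℕ) : ℕ := b.factorial ^ (T / b) * b.descFactorial (T % b)

/-- first bound for a 2-transitive group with imprimitive point stabiliser -/
def Ia (b s x : ℕ) : ℕ := (b * s + 1) * (x * KB b (b * s + 1 - mu b s))

/-- number of ordered pairs not yet separated -/
def Phi (b N : ℕ) : ℕ → ℕ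
  | 0 => (N - 1) * (b - 1)
  | i + 1 => Phi b N i * (b - 1) / N

/-- second bound for a 2-transitive group with imprimitive point stabiliser -/
def Ib (b s x i : ℕ) : ℕ :=
  (b * s + 1) * (x * (b * x) ^ i * 2 ^ (Phi b (b * s + 1) i / 2))

/-- `y` bounds the order of a 2-transitive group with imprimitive point stabiliser -/
def IB (b s y : ℕ) : Prop := ∃ x, XB b s x ∧ (Ia b s x ≤ y ∨ ∃ i, Ib b s x i ≤ y)

/-- the inequality needed when the stabiliser of `j` points is primitive -/
def NumU (n j : ℕ) : Prop := ∃ k, Adm (n - j) k ∧ n.descFactorial j * Ub (n - j) k ≤ 4 ^ n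

/-- the inequalities needed when the stabiliser of `j` points is imprimitive -/
def NumI (n j : ℕ) : Prop :=
  ∀ b s, 1 ≤ j → 2 ≤ b → 2 ≤ s → b * s + j = n →
    ∃ y, IB b s y ∧ n.descFactorial (j - 1) * y ≤ 4 ^ n

/-- the numerical inequalities needed in degree `n` -/
def Num (n : ℕ) : Prop := ∃ r, Cert n r ∧ ∀ j < r, NumU n j ∧ NumI n j

/-- elements with two cycles of length `p` in a rank 3 group -/
structure Cfg2 {α : Type} [Fintype α] [DecidableEq α] (C : Subgroup (Perm α)) (p : ℕ)
    (A : Set (Perm α)) (col : α → α → Bool) : Prop where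
  inv : ∀ g ∈ C, ∀ x y, col (g x) (g y) = col x y
  mem : ∀ a ∈ A, a ∈ C ∧ orderOf a = p
  ex : ∀ x, ∃ a ∈ A, a x = x
  cyc : ∀ a ∈ A, ∀ x, a x = x → ∀ u ∈ a.support, ∀ v ∈ a.support,
    (a.SameCycle u v ↔ col x u = col x v)
  both : ∀ a ∈ A, ∀ x, a x = x → ∀ c, ∃ u ∈ a.support, col x u = c
  tr : ∀ x y z, y ≠ x → z ≠ x → col x y = col x z →
    ∃ g ∈ Subgroup.closure {a | a ∈ A ∧ a x = x}, g y = z

/-- the elements of `L` fixing every class of the relation `E` -/
def Kr {α : Type} (L : Subgroup (Perm α)) (E : α → α → Prop) (hE : Equivalence E) :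
    Subgroup (Perm α) where
  carrier := {g | g ∈ L ∧ ∀ y, E y (g y)}
  one_mem' := ⟨L.one_mem, fun y => hE.refl y⟩
  mul_mem' := fun {g h} hg hh =>
    ⟨L.mul_mem hg.1 hh.1, fun y => hE.trans (hh.2 y) (hg.2 (h y))⟩
  inv_mem' := fun {g} hg => ⟨L.inv_mem hg.1, fun y => hE.symm (by simpa using hg.2 (g⁻¹ y))⟩

end Cfsg.Agent.P4n
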