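import Mathlib
import Cfsg.Agent.P4n.Defs
import Cfsg.Agent.ChS.Res

/-! Groups fixing all blocks or classes. -/

set_option autoImplicit false
set_option linter.unusedSectionVars false

namespace Cfsg.Agent.P4n

open Equiv MulAction ChS

variable {α : Type} [Fintype α] [DecidableEq α]

namespace KAH

theorem res_card (K : Subgroup (Perm α)) (B : Finset α) (hB : ∀ g ∈ K, ∀ x ∈ B, g x ∈ B) :
    Nat.card K ≤ B.card.factorial * Nat.card ↥(K ⊓ fixingSubgroup (Perm α) (B : Set α)) := by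
  have e : (ResH.res K B hB).ker = (K ⊓ fixingSubgroup (Perm α) (B : Set α)).subgroupOf K := by
    ext g
    rw [MonoidHom.mem_ker, ResH.res_eq_one, Subgroup.mem_subgroupOf, Subgroup.mem_inf]
    exact ⟨fun k => ⟨g.2, k⟩, fun k => k.2⟩
  have h := Subgroup.card_le_card_group (ResH.res K B hB).range
  rw [Nat.card_perm, Nat.card_eq_fintype_card (α := B), Fintype.card_coe] at h
  rw [← (ResH.res K B hB).ker.card_mul_index, Subgroup.index_ker, e,
    Nat.card_congr (Subgroup.subgroupOfEquivOfLe inf_le_left).toEquiv, mul_comm]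
  exact Nat.mul_le_mul_right _ h

theorem core {b r : ℕ} (π : α → Fin r) (hb : 0 < b)
    (hπ : ∀ i, (Finset.univ.filter fun x => π x = i).card = b) (R : Finset (Fin r)) :
    ∀ (T : ℕ) (K : Subgroup (Perm α)), T ≤ R.card * b → (∀ g ∈ K, ∀ x, π (g x) = π x) →
      (∀ s : Finset α, (∀ x ∈ s, π x ∈ R) → T ≤ s.card → ∀ g ∈ K, (∀ x ∈ s, g x = x) → g = 1) →
      Nat.card K ≤ KB b T := by
  induction R using Finset.induction_on with
  | empty =>
    intro T K hT _ h
    obtain rfl : T = 0 := by simpa using hT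
    rw [(Subgroup.eq_bot_iff_forall K).2 fun g hg => h ∅ (by simp) (by simp) g hg (by simp),
      Subgroup.card_bot]
    simp [KB]
  | insert i R hi ih =>
    intro T K hT hK h
    have hc := hπ i
    have hm : ∀ x, x ∈ (Finset.univ.filter fun x => π x = i) ↔ π x = i := fun x => by simp
    generalize (Finset.univ.filter fun x => π x = i) = B at hc hm
    have hB : ∀ g ∈ K, ∀ x ∈ B, g x ∈ B := fun g hg x hx => (hm _).2 ((hK g hg x).trans ((hm x).1 hx))
    have r1 := res_card K B hB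
    rw [hc] at r1
    have hBR : ∀ x ∈ B, π x ∈ insert i R := fun x hx => (hm x).1 hx ▸ Finset.mem_insert_self i R
    rcases lt_or_ge T b with hT' | hT'
    · obtain ⟨s, hs, hsc⟩ := Finset.exists_subset_card_eq (hT'.le.trans hc.ge)
      have k1 := card_le_desc K B s hB hs (h s (fun x hx => hBR x (hs hx)) hsc.ge)
      rw [hc, hsc] at k1
      unfold KB
      rwa [Nat.div_eq_of_lt hT', Nat.mod_eq_of_lt hT', pow_zero, one_mul]
    · obtain ⟨T, rfl⟩ := Nat.exists_eq_add_of_le' hT'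
      rw [Finset.card_insert_of_notMem hi, add_mul, one_mul] at hT
      have k := ih T (K ⊓ fixingSubgroup (Perm α) (B : Set α)) (by omega) (fun g hg => hK g hg.1)
        fun s hs hsc g hg hf => h (s ∪ B) (fun x hx => (Finset.mem_union.1 hx).elim
          (fun k => Finset.mem_insert_of_mem (hs x k)) (hBR x)) (by
            rw [Finset.card_union_of_disjoint
              (Finset.disjoint_left.2 fun x hx hx' => hi ((hm x).1 hx' ▸ hs x hx)), hc]
            omega) g hg.1 fun x hx => (Finset.mem_union.1 hx).elim (hf x) ((mem_fixingSubgroup_iff _).1 hg.2 x)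
      unfold KB at k ⊢
      rw [Nat.add_div_right _ hb, Nat.add_mod_right, pow_succ', mul_assoc]
      exact r1.trans (Nat.mul_le_mul_left _ k)

theorem eq_one {n : ℕ} (e : α ≃ Fin n) {σ : Perm α}
    (h : ∀ y, e y < e (σ⁻¹ y) → e (σ y) < e y) : σ = 1 := by
  by_contra hn
  obtain ⟨y, hy, hm⟩ := σ.support.exists_min_image e (Finset.nonempty_iff_ne_empty.2
    fun k => hn (Perm.support_eq_empty_iff.1 k))
  have h0 := Perm.mem_support.1 hy
  have h1 := hm _ (Perm.apply_mem_support.2 hy)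
  have h2 := hm (σ⁻¹ y) (Perm.apply_mem_support.1 (by simpa using hy))
  refine absurd (h y (h2.lt_of_ne fun k => h0 ?_)) h1.not_gt
  exact (Perm.eq_inv_iff_eq.1 (e.injective k))

end KAH

theorem card_le_KB (K : Subgroup (Perm α)) {b s : ℕ} (π : α → Fin s) (hb : 0 < b)
    (hbs : b * s = Fintype.card α) (hπ : ∀ i, (Finset.univ.filter fun x => π x = i).card = b)
    (hK : ∀ g ∈ K, ∀ x, π (g x) = π x) (m : ℕ) (hm1 : 1 ≤ m)
    (hm : ∀ g ∈ K, g ≠ 1 → m ≤ g.support.card) : Nat.card K ≤ KB b (b * s + 1 - m) :=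
  KAH.core π hb hπ Finset.univ _ K
    (by rw [Finset.card_univ, Fintype.card_fin, mul_comm s]; omega) hK
    fun t _ hT g hg => eq_one_of_fix K m hm t (by omega) g hg

theorem card_le_two_pow (K : Subgroup (Perm α)) (E : α → α → Prop) (hE : Equivalence E)
    (hK : ∀ g ∈ K, ∀ y, E y (g y)) :
    Nat.card K ≤ 2 ^ ({q : α × α | q.1 ≠ q.2 ∧ E q.1 q.2}.ncard / 2) := by
  classical
  obtain ⟨e⟩ : Nonempty (α ≃ Fin (Fintype.card α)) := ⟨Fintype.equivFin α⟩
  obtain ⟨S, hS⟩ : ∃ S : Finset (α × α), ∀ q, q ∈ S ↔ e q.1 < e q.2 ∧ E q.1 q.2 :=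
    ⟨Finset.univ.filter fun q => e q.1 < e q.2 ∧ E q.1 q.2, fun q => by simp⟩
  have h1 : {q : α × α | q.1 ≠ q.2 ∧ E q.1 q.2}.ncard = S.card * 2 := by
    have h2 : {q : α × α | q.1 ≠ q.2 ∧ E q.1 q.2} = ↑(S ∪ S.map (prodComm α α).toEmbedding) := by
      ext q
      rw [Finset.mem_coe, Finset.mem_union, Finset.mem_map_equiv, hS, hS]
      refine ⟨fun k => (lt_or_gt_of_ne (e.injective.ne k.1)).imp (⟨·, k.2⟩) (⟨·, hE.symm k.2⟩), ?_⟩
      rintro (k | k)
      · exact ⟨fun l => k.1.ne (congrArg e l), k.2⟩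
      · exact ⟨fun l => k.1.ne' (congrArg e l), hE.symm k.2⟩
    rw [h2, Set.ncard_coe_finset, Finset.card_union_of_disjoint (Finset.disjoint_left.2 fun q k l =>
      ((hS _).1 k).1.asymm ((hS q.swap).1 ((Finset.mem_map_equiv (f := prodComm α α)).1 l)).1), Finset.card_map, mul_two]
  rw [h1, Nat.mul_div_cancel _ two_pos, ← Finset.card_powerset, ← Nat.card_eq_finsetCard]
  refine Nat.card_le_card_of_injective (fun g : K => (⟨S.filter fun q => e (g.1 q.2) < e (g.1 q.1),
    Finset.mem_powerset.2 (Finset.filter_subset _ _)⟩ : S.powerset)) fun g h k => ?_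
  have k1 : ∀ q ∈ S, e (g.1 q.2) < e (g.1 q.1) ↔ e (h.1 q.2) < e (h.1 q.1) := fun q hq => by
    have := Finset.ext_iff.1 (congrArg Subtype.val k) q
    simpa [hq] using this
  have k2 : ∀ y z, E y z → e (h.1 y) < e (h.1 z) → e (g.1 y) < e (g.1 z) := fun y z hyz l => by
    rcases lt_trichotomy (e y) (e z) with c | c | c
    · refine lt_of_le_of_ne (not_lt.1 fun l' => l.asymm ((k1 (y, z) ((hS _).2 ⟨c, hyz⟩)).1 l')) fun l' => ?_
      exact c.ne (congrArg e (g.1.injective (e.injective l')))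
    · rw [e.injective c] at l
      exact absurd l (lt_irrefl _)
    · exact (k1 (z, y) ((hS _).2 ⟨c, hE.symm hyz⟩)).2 l
  refine Subtype.ext (mul_inv_eq_one.1 (KAH.eq_one e fun y l => ?_))
  have := k2 (h.1⁻¹ y) (g.1⁻¹ y) (hE.trans (hE.symm (hK _ (K.inv_mem h.2) y)) (hK _ (K.inv_mem g.2) y))
    (by simpa using l)
  simpa using this

end Cfsg.Agent.P4n
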