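import Cfsg.Agent.P4n.Defs
import Cfsg.Agent.P4n.KA
import Cfsg.Agent.ChS.MD

/-! Separation of pairs by few partitions. See stubs/Cfsg/Agent/P4n/PLAN.md, section Sep. -/

set_option autoImplicit false
set_option linter.unusedSectionVars false

namespace Cfsg.Agent.P4n

open Equiv MulAction ChS

variable {α : Type} [Fintype α] [DecidableEq α]

namespace SepH

open Finset

theorem stab_le (K : Subgroup (Perm α)) (u : α) (S : Finset α) (hS : ∀ g ∈ K, g u ∈ S) :
    ∃ K' ≤ K, (∀ g ∈ K', g u = u) ∧ Nat.card K ≤ #S * Nat.card K' := by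
  refine ⟨(stabilizer K u).map K.subtype, Subgroup.map_subtype_le _, ?_, ?_⟩
  · rintro g ⟨g', hg', rfl⟩
    exact hg'
  · rw [Subgroup.card_subtype, ← (stabilizer K u).index_mul_card, MulAction.index_stabilizer]
    refine Nat.mul_le_mul_right _ ?_
    rw [← Set.ncard_coe_finset]
    refine Set.ncard_le_ncard ?_ (Finset.finite_toSet S)
    rintro _ ⟨g, rfl⟩
    exact hS g g.2

open scoped Classical in
/-- the pairs not separated by the partitions of the points of `s` -/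
noncomputable def PP (R : α → α → α → Prop) (s : Finset α) : Finset (α × α) :=
  {q | q.1 ≠ q.2 ∧ ∀ u ∈ s, R u q.1 q.2}

theorem mem_PP {R : α → α → α → Prop} {s : Finset α} {q : α × α} :
    q ∈ PP R s ↔ q.1 ≠ q.2 ∧ ∀ u ∈ s, R u q.1 q.2 := by
  simp [PP]

variable {L : Subgroup (Perm α)} {b : ℕ} {R : α → α → α → Prop}

open scoped Classical in
theorem card_PP_zero (h : MDH.Fam L b R) (x₀ : α) :
    #(PP R {x₀}) ≤ (Fintype.card α - 1) * (b - 1) := by
  have h1 : PP R {x₀} ⊆ (univ.erase x₀).biUnion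
      fun y => (({z | R x₀ y z} : Finset α).erase y).image fun z => (y, z) := by
    rintro ⟨y, z⟩ hq
    obtain ⟨h1, h2⟩ := mem_PP.1 hq
    have h3 := h2 x₀ (mem_singleton_self _)
    refine mem_biUnion.2 ⟨y, mem_erase.2 ⟨?_, mem_univ _⟩, mem_image.2 ⟨z,
      mem_erase.2 ⟨fun e => h1 e.symm, mem_filter.2 ⟨mem_univ _, h3⟩⟩, rfl⟩⟩
    rintro rfl
    exact h1 (h.self _ _ h3).symm
  refine (card_le_card h1).trans ((card_biUnion_le_card_mul _ _ (b - 1) fun y hy => ?_).trans ?_)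
  · refine card_image_le.trans ?_
    rw [card_erase_of_mem (mem_filter.2 ⟨mem_univ _, h.refl _ _⟩), h.cardF (ne_of_mem_erase hy)]
  · rw [card_erase_of_mem (mem_univ _), card_univ]

open scoped Classical in
theorem exists_step [Nonempty α] (h : MDH.Fam L b R) (s : Finset α) :
    ∃ u, Fintype.card α * #(PP R (insert u s)) ≤ #(PP R s) * (b - 1) := by
  have h1 : ∑ u, #(PP R (insert u s)) ≤ #(PP R s) * (b - 1) := by
    have e : ∀ u, #(PP R (insert u s)) = ∑ q ∈ PP R s, if R u q.1 q.2 then 1 else 0 := by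
      intro u
      rw [← card_filter]
      congr 1
      ext q
      simp only [mem_PP, mem_filter, mem_insert, forall_eq_or_imp]
      tauto
    simp only [e]
    rw [sum_comm, ← smul_eq_mul]
    refine sum_le_card_nsmul _ _ _ fun q hq => ?_
    rw [← card_filter]
    exact h.lam (mem_PP.1 hq).1
  obtain ⟨u, -, hu⟩ := exists_min_image univ (fun u => #(PP R (insert u s))) univ_nonempty
  refine ⟨u, le_trans ?_ h1⟩
  rw [← card_univ, ← smul_eq_mul]
  exact card_nsmul_le_sum _ _ _ hu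

theorem iter [Nontrivial α] (h : MDH.Fam L b R) (x : ℕ)
    (hx : ∀ (u : α) (K : Subgroup (Perm α)), K ≤ L → (∀ g ∈ K, g u = u) →
      ∃ K' ≤ K, (∀ g ∈ K', ∀ y, R u y (g y)) ∧ Nat.card K ≤ x * Nat.card K') (x₀ : α) (i : ℕ) :
    ∃ s : Finset α, x₀ ∈ s ∧ ∃ K ≤ L, (∀ g ∈ K, ∀ u ∈ s, ∀ y, R u y (g y)) ∧
      Nat.card L ≤ Fintype.card α * (x * (b * x) ^ i) * Nat.card K ∧
      #(PP R s) ≤ Phi b (Fintype.card α) i := by
  classical
  induction i with
  | zero =>
    obtain ⟨K₁, h1, h2, h3⟩ := stab_le L x₀ univ fun _ _ => mem_univ _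
    obtain ⟨K₂, h4, h5, h6⟩ := hx x₀ K₁ h1 h2
    refine ⟨{x₀}, mem_singleton_self _, K₂, h4.trans h1, fun g hg u hu => ?_, ?_,
      card_PP_zero h x₀⟩
    · rw [mem_singleton.1 hu]
      exact h5 g hg
    · rw [card_univ] at h3
      rw [pow_zero, mul_one, mul_assoc]
      exact h3.trans (Nat.mul_le_mul_left _ h6)
  | succ i ih =>
    obtain ⟨s, hs, K, hK, h1, h2, h3⟩ := ih
    obtain ⟨u, hu⟩ := exists_step h s
    obtain ⟨K₁, k1, k2, k3⟩ := stab_le K u {z | R x₀ u z}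
      fun g hg => mem_filter.2 ⟨mem_univ _, h1 g hg x₀ hs u⟩
    have hb : #({z | R x₀ u z} : Finset α) ≤ b := by
      by_cases e : u = x₀
      · obtain ⟨y, hy⟩ := exists_ne x₀
        have h1b : 1 ≤ b := by
          rw [← h.cardF hy]
          exact card_pos.2 ⟨y, mem_filter.2 ⟨mem_univ _, h.refl _ _⟩⟩
        refine le_trans (card_le_one.2 fun a ha c hc => ?_) h1b
        subst e
        rw [h.self _ _ (mem_filter.1 ha).2, h.self _ _ (mem_filter.1 hc).2]
      · exact (h.cardF e).le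
    obtain ⟨K₂, k4, k5, k6⟩ := hx u K₁ (k1.trans hK) k2
    refine ⟨insert u s, mem_insert_of_mem hs, K₂, k4.trans (k1.trans hK), fun g hg v hv => ?_, ?_,
      ?_⟩
    · rcases mem_insert.1 hv with rfl | hv
      · exact k5 g hg
      · exact h1 g (k1 (k4 hg)) v hv
    · have : Nat.card K ≤ b * (x * Nat.card K₂) :=
        k3.trans (Nat.mul_le_mul hb k6)
      refine h2.trans ((Nat.mul_le_mul_left _ this).trans (le_of_eq ?_))
      ring
    · show _ ≤ Phi b (Fintype.card α) i * (b - 1) / Fintype.card α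
      rw [Nat.le_div_iff_mul_le Fintype.card_pos, mul_comm]
      exact hu.trans (Nat.mul_le_mul_right _ h3)

theorem ne_iff {x₀ : α} {g : Perm α} (h0 : g x₀ = x₀) (x : α) : g x ≠ x₀ ↔ x ≠ x₀ := by
  rw [not_iff_not]
  exact ⟨fun e => g.injective (e.trans h0.symm), fun e => e ▸ h0⟩

theorem sub_mem {x₀ : α} {g : Perm α} (hg : g ∈ L) (h0 : g x₀ = x₀) :
    g.subtypePerm (p := fun y => y ≠ x₀) (ne_iff h0) ∈ St L x₀ := by
  show Perm.ofSubtype (p := fun y => y ≠ x₀) (g.subtypePerm (ne_iff h0)) ∈ L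
  rwa [Perm.ofSubtype_subtypePerm (p := fun y => y ≠ x₀) (ne_iff h0)
    fun x hx e => hx (by rw [e, h0])]

theorem conj_fix {x₀ u : α} {t g : Perm α} (ht : t u = x₀) (hg : g u = u) :
    (t * g * t⁻¹) x₀ = x₀ := by
  rw [Perm.mul_apply, Perm.mul_apply, Perm.inv_eq_iff_eq.2 ht.symm, hg, ht]

/-- conjugation by `t` followed by restriction -/
def cj (L : Subgroup (Perm α)) {x₀ u : α} {t : Perm α} (htL : t ∈ L) (ht : t u = x₀)
    (K : Subgroup (Perm α)) (hK : K ≤ L) (hu : ∀ g ∈ K, g u = u) : K →* St L x₀ where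
  toFun g := ⟨(t * g * t⁻¹).subtypePerm (p := fun y => y ≠ x₀) (ne_iff (conj_fix ht (hu g g.2))),
    sub_mem (mul_mem (mul_mem htL (hK g.2)) (inv_mem htL)) (conj_fix ht (hu g g.2))⟩
  map_one' := by
    ext y
    simp
  map_mul' g h := by
    ext y
    simp

end SepH

theorem fam_card_le [Nontrivial α] {L : Subgroup (Perm α)} {b : ℕ} {R : α → α → α → Prop}
    (h : MDH.Fam L b R) (x : ℕ)
    (hx : ∀ (u : α) (K : Subgroup (Perm α)), K ≤ L → (∀ g ∈ K, g u = u) →
      ∃ K' ≤ K, (∀ g ∈ K', ∀ y, R u y (g y)) ∧ Nat.card K ≤ x * Nat.card K') (i : ℕ) :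
    Nat.card L ≤ Fintype.card α * (x * (b * x) ^ i * 2 ^ (Phi b (Fintype.card α) i / 2)) := by
  obtain ⟨x₀⟩ : Nonempty α := inferInstance
  obtain ⟨s, -, K, -, h1, h2, h3⟩ := SepH.iter h x hx x₀ i
  have h4 := card_le_two_pow K (fun y z => ∀ u ∈ s, R u y z)
    ⟨fun y u _ => h.refl u y, fun k u hu => h.symm _ _ _ (k u hu),
      fun k k' u hu => h.trans _ _ _ _ (k u hu) (k' u hu)⟩ fun g hg y u hu => h1 g hg u hu y
  have h5 : {q : α × α | q.1 ≠ q.2 ∧ ∀ u ∈ s, R u q.1 q.2}.ncard = (SepH.PP R s).card := by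
    rw [← Set.ncard_coe_finset]
    congr 1
    ext q
    simp [SepH.mem_PP]
  rw [h5] at h4
  rw [← mul_assoc]
  exact h2.trans (Nat.mul_le_mul_left _ (h4.trans
    (Nat.pow_le_pow_right (by norm_num) (Nat.div_le_div_right h3))))

theorem fam_index (L : Subgroup (Perm α)) (ht : IsPretransitive L α) (x₀ : α) {s : ℕ}
    (π : {y // y ≠ x₀} → Fin s) (hM : Pres (St L x₀) π) (φ : St L x₀ →* Perm (Fin s))
    (hφ : ∀ (g : St L x₀) (y : {y // y ≠ x₀}), φ g (π y) = π ((g : Perm {y // y ≠ x₀}) y))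
    (u : α) (K : Subgroup (Perm α)) (hK : K ≤ L) (hu : ∀ g ∈ K, g u = u) :
    ∃ K' ≤ K, (∀ g ∈ K', ∀ y, MDH.Rel L π u y (g y)) ∧
      Nat.card K ≤ Nat.card φ.range * Nat.card K' := by
  obtain ⟨⟨t, htL⟩, htu⟩ := ht.exists_smul_eq u x₀
  have htu : t u = x₀ := htu
  let ψ : K →* Perm (Fin s) := φ.comp (SepH.cj L htL htu K hK hu)
  refine ⟨ψ.ker.map K.subtype, Subgroup.map_subtype_le _, ?_, ?_⟩
  · rintro g ⟨g', hg', rfl⟩ y
    rw [MDH.rel_iff hM htL htu]
    by_cases hy : y = u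
    · subst hy
      rw [show (K.subtype g') y = y from hu g' g'.2]
    · have hy' : t y ≠ x₀ := fun e => hy (t.injective (e.trans htu.symm))
      have e1 := hφ (SepH.cj L htL htu K hK hu g') ⟨t y, hy'⟩
      have e2 : φ (SepH.cj L htL htu K hK hu g') = 1 := hg'
      rw [e2, Perm.one_apply] at e1
      have e3 := MDH.ext_coe π ⟨t y, hy'⟩
      have e4 := MDH.ext_coe π ((SepH.cj L htL htu K hK hu g' : Perm {y // y ≠ x₀}) ⟨t y, hy'⟩)
      have e5 : (((SepH.cj L htL htu K hK hu g' : Perm {y // y ≠ x₀}) ⟨t y, hy'⟩ :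
          {y // y ≠ x₀}) : α) = t (K.subtype g' y) := by
        simp [SepH.cj]
      rw [e5] at e4
      exact e3.trans ((congrArg some e1).trans e4.symm)
  · rw [Subgroup.card_subtype, ← ψ.ker.index_mul_card, Subgroup.index_ker]
    refine Nat.mul_le_mul_right _ (Subgroup.card_le_of_le ?_)
    rintro _ ⟨g, rfl⟩
    exact ⟨_, rfl⟩

end Cfsg.Agent.P4n
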