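import Mathlib
import Cfsg.Agent.P4n.Defs
import Cfsg.Agent.ChS.Res

/-! Maximal blocks. See stubs/Cfsg/Agent/P4n/PLAN.md, section XB. -/

set_option autoImplicit false

namespace Cfsg.Agent.P4n

open Equiv MulAction ChS

variable {α : Type} [Fintype α] [DecidableEq α]

namespace XBH

omit [DecidableEq α] in
theorem card_comp {b b' s s' : ℕ} (π : α → Fin s) (π' : Fin s → Fin s')
    (h : ∀ i, (Finset.univ.filter fun x => π x = i).card = b)
    (h' : ∀ i, (Finset.univ.filter fun x => π' x = i).card = b') (i : Fin s') :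
    (Finset.univ.filter fun x => π' (π x) = i).card = b * b' := by
  rw [Finset.card_eq_sum_card_fiberwise (f := π) (t := Finset.univ.filter fun x => π' x = i)
    fun x hx => Finset.mem_coe.2 (Finset.mem_filter.2
      ⟨Finset.mem_univ _, (Finset.mem_filter.1 (Finset.mem_coe.1 hx)).2⟩),
    Finset.sum_congr rfl (g := fun _ => b), Finset.sum_const, h', smul_eq_mul, mul_comm]
  intro j hj
  rw [← h j]
  congr 1
  ext x
  simp only [Finset.mem_filter, Finset.mem_univ, true_and]
  exact ⟨fun e => e.2, fun e => ⟨e ▸ (Finset.mem_filter.1 hj).2, e⟩⟩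

theorem step (M : Subgroup (Perm α)) (ht : IsPretransitive M α) (s : ℕ) :
    ∀ (b : ℕ) (π : α → Fin s), 2 ≤ b → 2 ≤ s → b * s = Fintype.card α → Pres M π →
      (∀ i, (Finset.univ.filter fun x => π x = i).card = b) →
    ∃ (b s : ℕ) (π : α → Fin s) (φ : M →* Perm (Fin s)), 2 ≤ b ∧ 2 ≤ s ∧ b * s = Fintype.card α ∧
      Pres M π ∧ (∀ i, (Finset.univ.filter fun x => π x = i).card = b) ∧
      (∀ (g : M) (x : α), φ g (π x) = π ((g : Perm α) x)) ∧ IsPreprimitive φ.range (Fin s) := by
  induction s using Nat.strong_induction_on with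
  | _ s ih =>
    intro b π hb hs hc hP hf
    have sur : Function.Surjective π := fun i => by
      obtain ⟨x, hx⟩ := Finset.card_pos.1 (show 0 < (Finset.univ.filter fun x => π x = i).card by
        rw [hf]; omega)
      exact ⟨x, (Finset.mem_filter.1 hx).2⟩
    obtain ⟨φ, hφ⟩ := exists_blockHom M π sur hP
    by_cases hp : IsPreprimitive φ.range (Fin s)
    · exact ⟨b, s, π, φ, hb, hs, hc, hP, hf, hφ, hp⟩
    have ht' : IsPretransitive φ.range (Fin s) := ⟨fun i j => by
      obtain ⟨x, rfl⟩ := sur i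
      obtain ⟨y, rfl⟩ := sur j
      obtain ⟨g, rfl⟩ := exists_smul_eq M x y
      exact ⟨⟨φ g, g, rfl⟩, hφ g x⟩⟩
    obtain ⟨b', s', π', hb', hs', hc', hP', hf'⟩ := exists_part φ.range ht' hp
    rw [Fintype.card_fin] at hc'
    refine ih s' (by nlinarith) (b * b') (fun x => π' (π x)) (by nlinarith) hs'
      (by rw [mul_assoc, hc', hc]) (fun g hg x y e => ?_) (card_comp π π' hf hf')
    have := hP' _ ⟨⟨g, hg⟩, rfl⟩ _ _ e
    rwa [hφ, hφ] at this

end XBH

theorem exists_part_prim (M : Subgroup (Perm α)) (ht : IsPretransitive M α)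
    (hp : ¬ IsPreprimitive M α) :
    ∃ (b s : ℕ) (π : α → Fin s) (φ : M →* Perm (Fin s)), 2 ≤ b ∧ 2 ≤ s ∧ b * s = Fintype.card α ∧
      Pres M π ∧ (∀ i, (Finset.univ.filter fun x => π x = i).card = b) ∧
      (∀ (g : M) (x : α), φ g (π x) = π ((g : Perm α) x)) ∧ IsPreprimitive φ.range (Fin s) := by
  obtain ⟨b, s, π, hb, hs, hc, hP, hf⟩ := exists_part M ht hp
  exact XBH.step M ht s b π hb hs hc hP hf

theorem small_support (M : Subgroup (Perm α)) {b s p : ℕ} (π : α → Fin s) (φ : M →* Perm (Fin s))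
    (hπ : ∀ i, (Finset.univ.filter fun x => π x = i).card = b)
    (hφ : ∀ (g : M) (x : α), φ g (π x) = π ((g : Perm α) x)) (hp : p.Prime) (hb : 2 ≤ b)
    (hbp : b < p) (hps : p ≤ s) (hA : alternatingGroup (Fin s) ≤ φ.range) :
    ∃ g ∈ M, g ≠ 1 ∧ g.support.card ≤ p * b := by
  obtain ⟨σ, hσ⟩ := (Perm.exists_with_cycleType_iff (α := Fin s) (m := {p})).2
    ⟨by simpa using hps, by simpa using hp.two_le⟩
  have h1 : σ.support.card = p := by rw [← Perm.sum_cycleType, hσ, Multiset.sum_singleton]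
  have h2 : orderOf σ = p := by
    rw [← Perm.lcm_cycleType, hσ, Multiset.lcm_singleton, normalize_eq]
  have h3 : σ ∈ alternatingGroup (Fin s) := by
    rw [Perm.mem_alternatingGroup, Perm.sign_of_cycleType, hσ, Multiset.sum_singleton,
      Multiset.card_singleton]
    exact (hp.odd_of_ne_two (by omega)).add_one.neg_one_pow
  obtain ⟨g, rfl⟩ := hA h3
  refine ⟨_, (g ^ b.factorial).2, fun e => ?_, ?_⟩
  · have h4 : g ^ b.factorial = 1 := Subtype.ext e
    have h5 : p ∣ b.factorial := by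
      rw [← h2, orderOf_dvd_iff_pow_eq_one, ← map_pow, h4, map_one]
    exact absurd (hp.dvd_factorial.1 h5) (by omega)
  · refine le_trans (Finset.card_le_card (t := (φ g).support.biUnion fun i =>
      Finset.univ.filter fun x => π x = i) fun x hx => ?_)
      (h1 ▸ Finset.card_biUnion_le_card_mul _ _ _ fun i _ => (hπ i).le)
    refine Finset.mem_biUnion.2 ⟨π x, ?_, Finset.mem_filter.2 ⟨Finset.mem_univ _, rfl⟩⟩
    by_contra h4
    have h5 : φ g (π x) = π x := Perm.notMem_support.1 h4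
    have h6 : ∀ y, π ((g : Perm α) y) = π x ↔ π y = π x := fun y => by
      rw [← hφ]
      nth_rewrite 1 [← h5]
      exact (φ g).apply_eq_iff_eq
    have h7 := pow_card_eq_one (x := (g : Perm α).subtypePerm (p := fun y => π y = π x) h6)
    rw [Fintype.card_perm, Fintype.card_subtype, hπ, Perm.subtypePerm_pow] at h7
    have h8 := congrArg Subtype.val (DFunLike.congr_fun h7 ⟨x, rfl⟩)
    exact Perm.mem_support.1 hx h8

end Cfsg.Agent.P4n
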