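import Mathlib
import Cfsg.Agent.P4n.Defs
import Cfsg.Agent.P4n.XB
import Cfsg.Agent.P4n.KA
import Cfsg.Agent.P4n.Sep
import Cfsg.Agent.ChS.Tow
import Cfsg.Agent.ChS.Prim

/-! Doubly transitive groups with imprimitive point stabiliser. -/

set_option autoImplicit false

namespace Cfsg.Agent.P4n

open Equiv MulAction ChS

variable {α : Type} [Fintype α] [DecidableEq α]

theorem imp_bound (L : Subgroup (Perm α)) (h2 : IsMultiplyPretransitive L α 2) (x₀ : α)
    (hn : 2 ≤ Fintype.card α) (hp : ¬ IsPreprimitive (St L x₀) {y // y ≠ x₀})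
    (ih : IH4 (Fintype.card α)) :
    ∃ b s, 2 ≤ b ∧ 2 ≤ s ∧ b * s + 1 = Fintype.card α ∧ ∀ y, IB b s y → Nat.card L ≤ y := by
  have h1 : IsPretransitive L α := is_one_pretransitive_iff.1
    (isMultiplyPretransitive_of_le (n := 2) (by omega) (by rwa [Nat.card_eq_fintype_card]))
  have hH1 : IsPretransitive (St L x₀) {y // y ≠ x₀} :=
    is_one_pretransitive_iff.1 ((St_multi L h1 x₀ 1).2 h2)
  have hZ := card_ne x₀
  obtain ⟨b, s, π, φ, hb, hs, hbs, hM, hπ, hφ, hpr⟩ := exists_part_prim (St L x₀) hH1 hp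
  have hN : b * s + 1 = Fintype.card α := by omega
  have hm : ∀ g ∈ St L x₀, g ≠ 1 → mu b s ≤ g.support.card := by
    obtain ⟨φ', hφ', hφ2⟩ := St_hom L x₀
    intro g hg hg1
    rw [← card_support_ofSubtype x₀ g, ← hφ2 ⟨g, hg⟩]
    refine min_degree L h2 x₀ π hb hs hN hM hπ _ (φ' ⟨g, hg⟩).2 fun h => hg1 ?_
    have h1 : φ' ⟨g, hg⟩ = φ' 1 := by
      rw [map_one]
      exact Subtype.ext h
    exact congrArg Subtype.val (hφ' h1)
  refine ⟨b, s, hb, hs, hN, ?_⟩
  rintro y ⟨x, hx, hy⟩
  have hr : Nat.card φ.range ≤ x := by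
    rcases hx with hx | ⟨hx, p, hpp, hbp, hps, hmu⟩
    · refine le_trans ?_ hx
      have := Subgroup.card_le_card_group φ.range
      rwa [Nat.card_perm, Nat.card_fin] at this
    · have hlt : Fintype.card (Fin s) < Fintype.card α := by
        rw [Fintype.card_fin]
        have : 1 * s ≤ b * s := Nat.mul_le_mul_right s (by omega)
        omega
      have := ih (Fin s) φ.range hlt hpr fun hA => by
        obtain ⟨g, hg, g1, hc⟩ := small_support (St L x₀) π φ hπ hφ hpp hb hbp hps hA
        have := hm g hg g1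
        omega
      rw [Fintype.card_fin] at this
      exact this.trans hx
  rcases hy with hy | ⟨i, hy⟩
  · refine le_trans ?_ hy
    have hk := card_le_KB (φ.ker.map (St L x₀).subtype) π (by omega) hbs hπ (by
      rintro _ ⟨g, hg, rfl⟩ z
      have := hφ g z
      rw [MonoidHom.mem_ker.1 hg] at this
      exact this.symm) (mu b s) (PrimH.mu_bounds hb hs).1 (by
      rintro _ ⟨g, -, rfl⟩
      exact hm _ g.2)
    rw [Subgroup.card_map_of_injective (St L x₀).subtype_injective] at hk
    rw [card_St L h1 x₀, ← φ.ker.index_mul_card, Subgroup.index_ker, ← hN]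
    exact Nat.mul_le_mul_left _ (Nat.mul_le_mul hr hk)
  · refine le_trans ?_ hy
    haveI : Nontrivial α := Fintype.one_lt_card_iff_nontrivial.1 (by omega)
    have := fam_card_le (MDH.fam h2 hM hπ) x (fun u K hK hu => by
      obtain ⟨K', h3, h4, h5⟩ := fam_index L h1 x₀ π hM φ hφ u K hK hu
      exact ⟨K', h3, h4, h5.trans (Nat.mul_le_mul_right _ hr)⟩) i
    rwa [← hN] at this

end Cfsg.Agent.P4n
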