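import Cfsg.Agent.P4n.Defs

/-! The imprimitive bound, analytic ranges. See stubs/Cfsg/Agent/P4n/PLAN.md, section NI. -/

set_option autoImplicit false

namespace Cfsg.Agent.P4n

open Equiv MulAction ChS

namespace NIH

theorem phi_zero (b N : ℕ) : Phi b N 0 = (N - 1) * (b - 1) := rfl

theorem phi_succ (b N i : ℕ) : Phi b N (i + 1) = Phi b N i * (b - 1) / N := rfl

theorem phi_le (b s i : ℕ) (hb : 0 < b) : Phi b (b * s + 1) i * s ^ i ≤ b * s * b := by
  induction i with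
  | zero =>
    rw [phi_zero, pow_zero, mul_one, Nat.add_sub_cancel]
    exact Nat.mul_le_mul_left _ (Nat.sub_le _ _)
  | succ i ih =>
    rw [phi_succ, pow_succ', ← mul_assoc]
    refine le_trans (Nat.mul_le_mul_right _ (Nat.le_of_mul_le_mul_right ?_ hb)) ih
    have h1 := Nat.div_mul_le_self (Phi b (b * s + 1) i * (b - 1)) (b * s + 1)
    have h2 : Phi b (b * s + 1) i * (b - 1) ≤ Phi b (b * s + 1) i * b := Nat.mul_le_mul_left _ (Nat.sub_le _ _)
    generalize Phi b (b * s + 1) i * (b - 1) / (b * s + 1) = q at h1 ⊢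
    nlinarith

theorem pow_ge (k : ℕ) : (4 * k + 60) * (4 * k + 60) ≤ 2 ^ (12 + k) ∧
    (k * k + 28 * k + 200) * (k * k + 28 * k + 200) ≤ 16 * 2 ^ (12 + k) := by
  induction k with
  | zero => norm_num
  | succ k ih =>
    rw [← add_assoc, pow_succ]
    generalize 2 ^ (12 + k) = y at ih ⊢
    constructor
    · nlinarith [ih.1]
    · have h : ((k + 1) * (k + 1) + 28 * (k + 1) + 200) * ((k + 1) * (k + 1) + 28 * (k + 1) + 200) ≤
          2 * ((k * k + 28 * k + 200) * (k * k + 28 * k + 200)) := by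
        nlinarith [Nat.zero_le (k * k * k * k), Nat.zero_le (k * k * k), Nat.zero_le (k * k)]
      omega

theorem fin {N a c e : ℕ} (h : a ≤ N * 2 ^ c) (h2 : c ≤ e) : N * a ≤ N ^ 2 * 2 ^ e := by
  rw [pow_two, mul_assoc]
  exact Nat.mul_le_mul_left _ (h.trans (Nat.mul_le_mul_left _ (Nat.pow_le_pow_right two_pos h2)))

end NIH

theorem IB_far {b s : ℕ} (hb : 2 ≤ b) (hs : 4 * b < s) :
    IB b s ((b * s + 1) ^ 2 * 2 ^ (3 * (b * s) / 2)) := by
  obtain ⟨p, hp, h1, h2⟩ := Nat.exists_prime_lt_and_le_two_mul b (by omega)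
  have h3 : b * (4 * b + 1) ≤ b * s := Nat.mul_le_mul_left b hs
  have e4 : 4 ^ s = 2 ^ (2 * s) := by rw [pow_mul]; rfl
  refine ⟨4 ^ s, Or.inr ⟨le_rfl, p, hp, h1, by omega, lt_max_of_lt_left ?_⟩, Or.inr ?_⟩
  · have h4 : p * b ≤ 2 * b * b := Nat.mul_le_mul_right b h2
    have h5 : b * (4 * b + 1) = 2 * (2 * b * b) + b := by ring
    omega
  rcases hb.eq_or_lt with rfl | hb
  · refine ⟨0, NIH.fin (c := 3 * s) ?_ (by omega)⟩
    rw [pow_zero, mul_one, NIH.phi_zero, e4, ← pow_add]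
    exact (Nat.pow_le_pow_right two_pos (by omega)).trans (Nat.le_mul_of_pos_left _ (by omega))
  · refine ⟨1, NIH.fin (c := 2 * s + 2 * s + Phi b (b * s + 1) 1 / 2) ?_ ?_⟩
    · rw [pow_one, e4, pow_add, pow_add]
      have h4 : b ≤ b * s + 1 := by nlinarith
      calc _ = b * (2 ^ (2 * s) * 2 ^ (2 * s) * 2 ^ (Phi b (b * s + 1) 1 / 2)) := by ring
        _ ≤ _ := Nat.mul_le_mul_right _ h4
    · have h4 : Phi b (b * s + 1) 1 ≤ (b - 1) * (b - 1) := by
        rw [NIH.phi_succ b _ 0, NIH.phi_zero, Nat.add_sub_cancel]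
        exact Nat.div_le_of_le_mul (by rw [mul_assoc]; exact Nat.mul_le_mul_right _ (Nat.le_succ _))
      obtain ⟨c, rfl⟩ : ∃ c, b = c + 3 := ⟨b - 3, by omega⟩
      have h5 : 8 * s + (c + 2) * (c + 2) ≤ 3 * ((c + 3) * s) := by nlinarith
      rw [show c + 3 - 1 = c + 2 from rfl] at h4
      omega

theorem IB_large {b s : ℕ} (h2 : 2 ≤ s) (hs : s ≤ 4 * b) (hn : 4096 ≤ b * s) :
    IB b s ((b * s + 1) ^ 2 * 2 ^ (3 * (b * s) / 2)) := by
  have hb : 0 < b := by omega
  obtain ⟨k, hk⟩ : ∃ k, Nat.log 2 (b * s) = 12 + k :=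
    Nat.exists_eq_add_of_le (Nat.le_log_of_pow_le one_lt_two hn)
  have l1 := Nat.pow_log_le_self 2 (show b * s ≠ 0 by omega)
  have l2 := Nat.lt_pow_succ_log_self one_lt_two (b * s)
  have t1 := Nat.pow_log_le_self 2 (show s ≠ 0 by omega)
  have t2 := Nat.lt_pow_succ_log_self one_lt_two s
  have t3 : 1 ≤ Nat.log 2 s := Nat.le_log_of_pow_le one_lt_two h2
  rw [hk] at l1 l2
  generalize Nat.log 2 s = t at t1 t2 t3
  have i1 := Nat.lt_mul_div_succ (13 + k) t3
  have i2 := Nat.mul_div_le (13 + k) t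
  generalize (13 + k) / t = i at i1 i2
  have hphi : Phi b (b * s + 1) i ≤ b * s := by
    have h3 : b * s < s ^ i * s := by
      rw [← pow_succ]
      exact l2.trans_le ((Nat.pow_le_pow_right two_pos (by omega)).trans
        ((pow_mul 2 t (i + 1)).le.trans (Nat.pow_le_pow_left t1 _)))
    have h4 := Nat.mul_le_mul_left (Phi b (b * s + 1) i) (Nat.lt_of_mul_lt_mul_right h3).le
    exact Nat.le_of_mul_le_mul_right (h4.trans (NIH.phi_le b s i hb)) hb
  have hss : s * s ≤ 4 * (b * s) := by nlinarith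
  have ht : 2 * t < 15 + k := by
    refine (Nat.pow_lt_pow_iff_right one_lt_two).1 ?_
    rw [two_mul, pow_add, show 15 + k = (12 + k).succ + 2 by omega, pow_add]
    have := Nat.mul_le_mul t1 t1
    omega
  have hi : (i + 1) * (t + 1) ≤ 2 * (13 + k) + 2 := by
    rcases t3.eq_or_lt with rfl | t3
    · omega
    · nlinarith
  have hL : i ≤ 13 + k := by nlinarith
  obtain ⟨p1, p2⟩ := NIH.pow_ge k
  have w1 := Nat.le_sqrt.2 (p1.trans l1)
  have w2 := Nat.sqrt_le (b * s)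
  have w3 := Nat.lt_succ_sqrt (b * s)
  generalize Nat.sqrt (b * s) = w at w1 w2 w3
  have w4 : s < 2 * w + 2 := Nat.mul_self_lt_mul_self_iff.1 (by simp only [Nat.succ_eq_add_one] at w3; nlinarith)
  have w5 : k * k + 28 * k + 200 < 4 * w + 4 :=
    Nat.mul_self_lt_mul_self_iff.1 (by simp only [Nat.succ_eq_add_one] at w3; nlinarith)
  have hx : s.factorial ≤ 2 ^ ((t + 1) * s) := by
    rw [pow_mul]
    exact s.factorial_le_pow.trans (Nat.pow_le_pow_left t2.le _)
  have hb' : b ≤ 2 ^ (13 + k) := (Nat.le_mul_of_pos_right b (by omega)).trans (l2.le.trans (by rw [add_comm 13, add_comm 12]))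
  refine ⟨s.factorial, Or.inl le_rfl, Or.inr ⟨i, NIH.fin
    (c := (t + 1) * s + (13 + k + (t + 1) * s) * i + Phi b (b * s + 1) i / 2) ?_ ?_⟩⟩
  · refine le_trans ?_ (Nat.le_mul_of_pos_left _ (by omega))
    rw [pow_add, pow_add, pow_mul _ _ i, pow_add]
    gcongr
  · have a1 : s * ((i + 1) * (t + 1)) ≤ (2 * w + 1) * (2 * (13 + k) + 2) := Nat.mul_le_mul (by omega) hi
    have a2 := Nat.mul_le_mul_left (13 + k) hL
    have a3 := Nat.mul_le_mul_left w w1
    have a4 : (t + 1) * s + (13 + k + (t + 1) * s) * i ≤ b * s := by nlinarith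
    omega

end Cfsg.Agent.P4n
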