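import Cfsg.Agent.P4n.Defs

/-! The imprimitive bound, kernel computation. See stubs/Cfsg/Agent/P4n/PLAN.md, section NJ. -/

set_option autoImplicit false

namespace Cfsg.Agent.P4n

open Equiv MulAction ChS

namespace NJH

/-- Search for an index `i` at which the logarithmic form of the inequality holds. -/
def go (b N st y : ℕ) : ℕ → ℕ → ℕ → Bool
  | 0, _, _ => false
  | f + 1, acc, ph => Nat.ble (acc + ph / 2) y || go b N st y f (acc + st) (ph * (b - 1) / N)

theorem go_ok {b N st y L : ℕ} : ∀ (f i : ℕ), go b N st y f (L + i * st) (Phi b N i) = true →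
    ∃ j, L + j * st + Phi b N j / 2 ≤ y
  | 0, _, h => by simp [go] at h
  | f + 1, i, h => by
    rw [go, Bool.or_eq_true] at h
    rcases h with h | h
    · exact ⟨i, Nat.le_of_ble_eq_true h⟩
    · exact go_ok f (i + 1) (by rw [add_mul, one_mul, ← add_assoc]; exact h)

/-- The test for one pair. -/
def one (s L b : ℕ) : Bool :=
  go b (b * s + 1) (L + 12) (3 * (b * s) / 2) 12 L (b * s * (b - 1))

/-- The test for `b₀ ≤ b < b₀ + c`. -/
def row (s L : ℕ) : ℕ → ℕ → Bool
  | 0, _ => true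
  | c + 1, b => one s L b && row s L c (b + 1)

theorem row_ok {s L : ℕ} : ∀ (c b₀ b : ℕ), row s L c b₀ = true → b₀ ≤ b → b < b₀ + c → one s L b = true
  | 0, _, _, _, h1, h2 => by omega
  | c + 1, b₀, b, h, h1, h2 => by
    rw [row, Bool.and_eq_true] at h
    rcases h1.eq_or_lt with rfl | k
    · exact h.1
    · exact row_ok c (b₀ + 1) b h.2 k (by omega)

/-- The least admissible `b`. -/
def lo (s : ℕ) : ℕ := max ((s + 3) / 4) ((283 + s) / s)

/-- The test for all `b`. -/
def all (s : ℕ) : Bool := row s (Nat.log2 s.factorial + 1) (4095 / s + 1 - lo s) (lo s)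

theorem all_ok : ∀ s < 128, 2 ≤ s → all s = true := by decide +kernel

end NJH

open NJH

theorem IB_mid {b s : ℕ} (h2 : 2 ≤ s) (hs : s ≤ 4 * b) (h1 : 284 ≤ b * s) (hn : b * s < 4096) :
    IB b s ((b * s + 1) ^ 2 * 2 ^ (3 * (b * s) / 2)) := by
  have s1 : s < 128 := by nlinarith
  have l1 : lo s ≤ b := max_le (by omega) (by
    rw [← Nat.lt_succ_iff, Nat.div_lt_iff_lt_mul (by omega)]
    rw [Nat.succ_mul]
    omega)
  have l2 : b ≤ 4095 / s := (Nat.le_div_iff_mul_le (by omega)).2 (by omega)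
  have k := row_ok _ _ b (all_ok s s1 h2) l1 (by omega)
  obtain ⟨i, hi⟩ := go_ok (b := b) (N := b * s + 1) (st := Nat.log2 s.factorial + 1 + 12) (y := 3 * (b * s) / 2)
    (L := Nat.log2 s.factorial + 1) 12 0 (by
      rw [zero_mul, add_zero]
      exact k)
  refine ⟨s.factorial, Or.inl le_rfl, Or.inr ⟨i, ?_⟩⟩
  have x1 : s.factorial ≤ 2 ^ (Nat.log2 s.factorial + 1) := Nat.lt_log2_self.le
  generalize Nat.log2 s.factorial + 1 = L at *
  have b1 : b ≤ 2 ^ 12 := by nlinarith
  have x2 : b * s.factorial ≤ 2 ^ (L + 12) := by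
    rw [pow_add, mul_comm]
    exact Nat.mul_le_mul x1 b1
  have x3 : (b * s.factorial) ^ i ≤ 2 ^ (i * (L + 12)) := by
    rw [mul_comm i, pow_mul]
    exact Nat.pow_le_pow_left x2 i
  rw [Ib, sq, mul_assoc (b * s + 1)]
  refine Nat.mul_le_mul_left _ (le_trans ?_ (Nat.le_mul_of_pos_left _ (Nat.succ_pos _)))
  refine le_trans ?_ (Nat.pow_le_pow_right (by norm_num) hi)
  rw [pow_add, pow_add]
  exact Nat.mul_le_mul_right _ (Nat.mul_le_mul x1 x3)

end Cfsg.Agent.P4n
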