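import Cfsg.Agent.P4n.Defs

/-! The primitive bound, large degrees. -/

set_option autoImplicit false

namespace Cfsg.Agent.P4n

open Equiv MulAction ChS

namespace RBH

open Finset

theorem vf_le (p f m : ℕ) : (p - 1) * vf p f m ≤ m := by
  induction f generalizing m with
  | zero => exact Nat.mul_div_le m (p - 1)
  | succ f ih =>
    change (p - 1) * (if m < p then 0 else m / p + vf p f (m / p)) ≤ m
    split_ifs with h
    · simp
    · rcases p with _ | p
      · simp
      · have h1 := ih (m / (p + 1))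
        have h2 := Nat.mul_div_le m (p + 1)
        rw [Nat.add_sub_cancel] at h1 ⊢
        nlinarith

/-- main part of the exponent -/
def a (n p : ℕ) : ℕ := n / (p * (p - 1)) + n / max (p * p) 363

theorem ex0_le (n : ℕ) {p : ℕ} (hp : p.Prime) :
    ex0 n 362 p ≤ a n p + if 3 * p ≤ n then 1 else 0 := by
  have h2 := hp.two_le
  have h1 : vf p 20 (n / p) ≤ n / (p * (p - 1)) := by
    rw [← Nat.div_div_eq_div_mul, Nat.le_div_iff_mul_le (by omega), mul_comm]
    exact vf_le p 20 (n / p)
  have h3 : 363 ≤ rnd p 362 := by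
    have := Nat.lt_mul_div_succ 362 hp.pos
    delta rnd
    omega
  have h4 : max (p * p) 363 ≤ MM p 362 := max_le_max le_rfl h3
  have h5 : n / MM p 362 ≤ n / max (p * p) 363 := Nat.div_le_div_left h4 (by omega)
  have h6 : 0 < MM p 362 := by omega
  have h7 : (n + MM p 362 - EE p 362) / MM p 362 ≤ n / MM p 362 + if 3 * p ≤ n then 1 else 0 := by
    split_ifs with h
    · rw [← Nat.add_div_right _ h6]
      exact Nat.div_le_div_right (Nat.sub_le _ _)
    · rw [add_zero]
      delta EE
      rcases min_choice (max (3 * p) (rnd p 362)) (MM p 362) with e | e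
      · have h8 := min_le_right (max (3 * p) (rnd p 362)) (MM p 362)
        have h9 := le_max_left (3 * p) (rnd p 362)
        rw [Nat.div_eq_of_lt (by omega)]
        exact Nat.zero_le _
      · rw [e, Nat.add_sub_cancel]
  delta ex0 a
  omega

theorem Vb_le (n : ℕ) :
    Vb n 362 ≤ (∏ p ∈ (range (n + 1)).filter Nat.Prime, p ^ a n p) * 4 ^ (n / 3) := by
  have h1 : ∏ p ∈ (range (n + 1)).filter Nat.Prime, p ^ (if 3 * p ≤ n then 1 else 0) ≤
      primorial (n / 3) := by
    simp only [pow_ite, pow_one, pow_zero]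
    rw [← prod_filter, primorial]
    refine prod_le_prod_of_subset_of_one_le' (fun p hp => ?_)
      (fun p hp _ => (mem_filter.1 hp).2.pos)
    simp only [mem_filter, mem_range] at hp ⊢
    exact ⟨by omega, hp.1.2⟩
  refine le_trans ?_ (Nat.mul_le_mul_left _ (h1.trans (primorial_le_four_pow _)))
  rw [← prod_mul_distrib]
  refine prod_le_prod' fun p hp => ?_
  rw [← pow_add]
  exact Nat.pow_le_pow_right (mem_filter.1 hp).2.pos (ex0_le n (mem_filter.1 hp).2)

/-- rounded weight -/
def W (p : ℕ) : ℕ := 10 ^ 9 / (p * (p - 1)) + 10 ^ 9 / max (p * p) 363 + 2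

/-- rounded logarithm -/
def L (p : ℕ) : ℕ := Nat.log 2 (p ^ 256) + 1

/-- a test passed by all primes -/
def T (m : ℕ) : Bool := if m < 64 then decide m.Prime else Nat.gcd m (Nat.factorial 63) == 1

/-- partial sums -/
def S : ℕ → ℕ
  | 0 => 0
  | m + 1 => S m + if T m then W m * L m else 0

theorem S_le : S 4096 ≤ 12155 * 256 * 10 ^ 5 := by decide +kernel

theorem le_S (m : ℕ) : ∑ p ∈ (range m).filter Nat.Prime, W p * L p ≤ S m := by
  rw [sum_filter]
  induction m with
  | zero => simp [S]
  | succ m ih =>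
    rw [sum_range_succ, S]
    refine Nat.add_le_add ih ?_
    by_cases h : m.Prime
    · have : T m = true := by
        unfold T
        split_ifs with h1
        · exact decide_eq_true h
        · exact beq_iff_eq.2 ((Nat.Prime.coprime_iff_not_dvd h).2
            (fun e => h1 (Nat.lt_succ_of_le ((h.dvd_factorial).1 e))))
      rw [if_pos h, if_pos this]
    · rw [if_neg h]
      exact Nat.zero_le _

theorem fin_sum : ∑ p ∈ (range 4096).filter Nat.Prime, W p * L p ≤ 12155 * 256 * 10 ^ 5 :=
  (le_S _).trans S_le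

theorem div_le (N n d : ℕ) (hd : 0 < d) : N * (n / d) ≤ n * (N / d + 1) := by
  have h1 := Nat.mul_div_le n d
  have h2 := (Nat.lt_mul_div_succ N hd).le
  calc N * (n / d) ≤ d * (N / d + 1) * (n / d) := Nat.mul_le_mul_right _ h2
    _ = d * (n / d) * (N / d + 1) := by ring
    _ ≤ _ := Nat.mul_le_mul_right _ h1

theorem term_small (n : ℕ) {p : ℕ} (hp : p.Prime) :
    (a n p : ℝ) * Real.log p ≤ n * Real.log 2 / (256 * 10 ^ 9) * ((W p * L p : ℕ) : ℝ) := by
  have h2 := hp.two_le
  have h1 : 10 ^ 9 * a n p ≤ n * W p := by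
    have k1 := div_le (10 ^ 9) n (p * (p - 1)) (Nat.mul_pos (by omega) (by omega))
    have k2 := div_le (10 ^ 9) n (max (p * p) 363) (by omega)
    unfold a W
    generalize 10 ^ 9 = N at *
    nlinarith
  have h3 : (10 : ℝ) ^ 9 * a n p ≤ n * W p := by exact_mod_cast h1
  have h4 : (p : ℝ) ^ 256 ≤ 2 ^ L p := by
    exact_mod_cast (Nat.lt_pow_succ_log_self (b := 2) (by norm_num) (p ^ 256)).le
  have hp0 : (0 : ℝ) < p := by exact_mod_cast hp.pos
  have h5 := Real.log_le_log (pow_pos hp0 _) h4
  rw [Real.log_pow, Real.log_pow] at h5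
  have h6 : 0 ≤ Real.log p := Real.log_natCast_nonneg p
  have h7 := mul_le_mul h3 h5 (by positivity) (by positivity)
  push_cast at h7 ⊢
  rw [div_mul_eq_mul_div, le_div_iff₀ (by norm_num)]
  nlinarith

theorem term_large (n : ℕ) {k : ℕ} (hk : 2 ≤ k) :
    (a n k : ℝ) * Real.log k ≤ 2 * n * (Real.log k / (k * (k - 1))) := by
  have h1 : a n k ≤ 2 * (n / (k * (k - 1))) := by
    have : n / max (k * k) 363 ≤ n / (k * (k - 1)) :=
      Nat.div_le_div_left ((Nat.mul_le_mul_left k (Nat.sub_le k 1)).trans (le_max_left _ _))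
        (Nat.mul_pos (by omega) (by omega))
    unfold a
    omega
  have h2 : ((n / (k * (k - 1)) : ℕ) : ℝ) ≤ n / (k * (k - 1)) := by
    have := Nat.cast_div_le (α := ℝ) (m := n) (n := k * (k - 1))
    rwa [Nat.cast_mul, Nat.cast_sub (by omega), Nat.cast_one] at this
  have h3 : (a n k : ℝ) ≤ 2 * (n / (k * (k - 1))) := by
    have : (a n k : ℝ) ≤ 2 * ((n / (k * (k - 1)) : ℕ) : ℝ) := by exact_mod_cast h1
    linarith
  calc _ ≤ 2 * (n / (k * (k - 1))) * Real.log k :=
        mul_le_mul_of_nonneg_right h3 (Real.log_natCast_nonneg k)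
    _ = _ := by ring

theorem tele {m : ℝ} (hm : 1 ≤ m) :
    Real.log (m + 1) / ((m + 1) * m) ≤ (Real.log m + 2) / m - (Real.log (m + 1) + 2) / (m + 1) := by
  have h0 : 0 < m := by linarith
  have h1 : Real.log (m + 1) - Real.log m ≤ 1 / m := by
    rw [← Real.log_div (by positivity) h0.ne']
    refine (Real.log_le_sub_one_of_pos (by positivity)).trans (le_of_eq ?_)
    field_simp
    ring
  have h2 : m * (Real.log (m + 1) - Real.log m) ≤ 1 := by
    have := mul_le_mul_of_nonneg_left h1 h0.le
    rwa [mul_one_div_cancel h0.ne'] at this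
  have h3 : 1 / m ≤ 1 := by rw [div_le_one h0]; exact hm
  rw [div_sub_div _ _ h0.ne' (by positivity), mul_comm (m + 1) m,
    div_le_div_iff_of_pos_right (by positivity)]
  nlinarith

theorem tail (m : ℕ) (hm : 4095 ≤ m) :
    ∑ k ∈ Ico 4096 (m + 1), Real.log k / (k * (k - 1)) ≤
      (Real.log 4095 + 2) / 4095 - (Real.log m + 2) / m := by
  induction m, hm using Nat.le_induction with
  | base => simp
  | succ m hm ih =>
    rw [sum_Ico_succ_top (by omega)]
    have := tele (m := m) (by exact_mod_cast (by omega : 1 ≤ m))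
    push_cast
    rw [add_sub_cancel_right]
    linarith

theorem sum_le (n : ℕ) (hn : 4095 ≤ n) :
    ∑ p ∈ (range (n + 1)).filter Nat.Prime, (a n p : ℝ) * Real.log p ≤ 1.223 * (n * Real.log 2) := by
  have l2 := Real.log_two_gt_d9
  have hn0 : (0 : ℝ) ≤ n := n.cast_nonneg
  rw [← sum_filter_add_sum_filter_not _ (· < 4096)]
  have h1 : ∑ p ∈ ((range (n + 1)).filter Nat.Prime).filter (· < 4096), (a n p : ℝ) * Real.log p ≤
      1.2155 * (n * Real.log 2) := by
    have e : ((range (n + 1)).filter Nat.Prime).filter (· < 4096) = (range 4096).filter Nat.Prime := by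
      ext p
      simp only [mem_filter, mem_range]
      exact ⟨fun h => ⟨h.2, h.1.2⟩, fun h => ⟨⟨by omega, h.2⟩, h.1⟩⟩
    rw [e]
    refine (sum_le_sum fun p hp => term_small n (mem_filter.1 hp).2).trans ?_
    rw [← mul_sum, ← Nat.cast_sum]
    have h2 : ((∑ p ∈ (range 4096).filter Nat.Prime, W p * L p : ℕ) : ℝ) ≤ 12155 * 256 * 10 ^ 5 := by
      exact_mod_cast fin_sum
    refine (mul_le_mul_of_nonneg_left h2 (by positivity)).trans (le_of_eq ?_)
    ring
  have h2 : ∑ p ∈ ((range (n + 1)).filter Nat.Prime).filter (fun p => ¬ p < 4096),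
      (a n p : ℝ) * Real.log p ≤ 0.0075 * (n * Real.log 2) := by
    have h3 : ∑ p ∈ ((range (n + 1)).filter Nat.Prime).filter (fun p => ¬ p < 4096),
        (a n p : ℝ) * Real.log p ≤ ∑ p ∈ Ico 4096 (n + 1), (a n p : ℝ) * Real.log p := by
      refine sum_le_sum_of_subset_of_nonneg (fun p hp => ?_)
        (fun p _ _ => mul_nonneg (Nat.cast_nonneg _) (Real.log_natCast_nonneg p))
      simp only [mem_filter, mem_range, mem_Ico] at hp ⊢
      omega
    refine h3.trans ((sum_le_sum fun k hk => term_large n (by have := (mem_Ico.1 hk).1; omega)).trans ?_)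
    rw [← mul_sum]
    have h4 := tail n hn
    have h5 : 0 ≤ (Real.log n + 2) / n :=
      div_nonneg (by have := Real.log_natCast_nonneg n; linarith) hn0
    have h6 : Real.log 4095 ≤ 12 * Real.log 2 := by
      have := Real.log_le_log (x := 4095) (y := 2 ^ 12) (by norm_num) (by norm_num)
      rw [Real.log_pow] at this
      exact_mod_cast this
    have h7 : ∑ k ∈ Ico 4096 (n + 1), Real.log k / (k * (k - 1)) ≤ 0.00375 * Real.log 2 := by
      linarith
    have := mul_le_mul_of_nonneg_left h7 (by positivity : (0 : ℝ) ≤ 2 * n)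
    linarith
  linarith

end RBH

open RBH Finset in
theorem rate_large (n : ℕ) (h1 : 2 ^ 19 ≤ n) :
    ∃ k, Adm n k ∧ Ub n k ≤ 2 ^ (19 * n / 10) := by
  refine ⟨362, by delta Adm; omega, ?_⟩
  have he : exc n ≤ n * n := by
    delta exc
    refine Nat.mul_le_mul ?_ ?_ <;> split_ifs <;> omega
  refine (Nat.mul_le_mul he (Vb_le n)).trans ?_
  set P := ∏ p ∈ (range (n + 1)).filter Nat.Prime, p ^ a n p with hP
  have hP0 : 0 < P := prod_pos fun p hp => pow_pos (mem_filter.1 hp).2.pos _
  have hP1 : Real.log P ≤ 1.223 * (n * Real.log 2) := by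
    rw [hP, Nat.cast_prod, Real.log_prod (fun p hp => by
      have := (mem_filter.1 hp).2.pos
      positivity)]
    simp only [Nat.cast_pow, Real.log_pow]
    exact sum_le n (by omega)
  have l2 := Real.log_two_gt_d9
  have hn : (524288 : ℝ) ≤ n := by exact_mod_cast h1
  have hn0 : (0 : ℝ) < n := by linarith
  have hl : Real.log n ≤ 19 * Real.log 2 + n / 524288 := by
    have h2 := Real.log_le_sub_one_of_pos (x := n / 2 ^ 19) (by positivity)
    rw [Real.log_div hn0.ne' (by positivity), Real.log_pow] at h2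
    push_cast at h2
    linarith
  have h3 : ((n / 3 : ℕ) : ℝ) ≤ n / 3 := Nat.cast_div_le
  have h4 : (19 * n : ℝ) / 10 - 1 ≤ ((19 * n / 10 : ℕ) : ℝ) := by
    have : 19 * n ≤ 10 * (19 * n / 10) + 10 := by omega
    have : (19 * n : ℝ) ≤ 10 * ((19 * n / 10 : ℕ) : ℝ) + 10 := by exact_mod_cast this
    linarith
  have hP2 : (0 : ℝ) < P := by exact_mod_cast hP0
  have key : ((n * n * (P * 4 ^ (n / 3)) : ℕ) : ℝ) ≤ 2 ^ (19 * n / 10) := by
    push_cast
    rw [← Real.log_le_log_iff (by positivity) (by positivity), Real.log_mul (by positivity) (by positivity),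
      Real.log_mul hn0.ne' hn0.ne', Real.log_mul hP2.ne' (by positivity), Real.log_pow, Real.log_pow,
      show (4 : ℝ) = 2 ^ 2 by norm_num, Real.log_pow]
    have h5 := mul_le_mul_of_nonneg_right h3 (by linarith : 0 ≤ Real.log 2)
    have h6 := mul_le_mul_of_nonneg_right h4 (by linarith : 0 ≤ Real.log 2)
    have h7 := mul_le_mul_of_nonneg_right hn (by linarith : 0 ≤ Real.log 2)
    have h8 := mul_le_mul_of_nonneg_left l2.le hn0.le
    push_cast
    nlinarith
  exact_mod_cast key

end Cfsg.Agent.P4n
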