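import Cfsg.Agent.P4n.Defs
import Cfsg.Agent.P4n.NA
import Cfsg.Agent.P4n.NB
import Cfsg.Agent.P4n.NI
import Cfsg.Agent.P4n.NJ
import Cfsg.Agent.P4n.RA
import Cfsg.Agent.P4n.RB
import Cfsg.Agent.P4n.CA

/-! The numerical inequalities hold in every degree from 9 on. -/

set_option autoImplicit false

namespace Cfsg.Agent.P4n

open Equiv MulAction ChS

namespace NRH

theorem IB_all {b s : ℕ} (hb : 2 ≤ b) (h2 : 2 ≤ s) (hn : 284 ≤ b * s) :
    IB b s ((b * s + 1) ^ 2 * 2 ^ (3 * (b * s) / 2)) := by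
  by_cases h : 4 * b < s
  · exact IB_far hb h
  by_cases h' : b * s < 4096
  · exact IB_mid h2 (by omega) hn h'
  · exact IB_large h2 (by omega) (by omega)

theorem numI_of {n j : ℕ} (h1 : 284 + j ≤ n) (h2 : n ^ (j + 1) ≤ 2 ^ (n / 2)) : NumI n j := by
  intro b s hj hb hs e
  refine ⟨_, IB_all hb hs (by omega), ?_⟩
  obtain ⟨i, rfl⟩ : ∃ i, j = i + 1 := ⟨j - 1, by omega⟩
  have a1 : n.descFactorial (i + 1 - 1) ≤ n ^ i := Nat.descFactorial_le_pow n i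
  have a2 : (b * s + 1) ^ 2 ≤ n ^ 2 := Nat.pow_le_pow_left (by omega) 2
  have a3 : 2 ^ (3 * (b * s) / 2) ≤ 2 ^ (3 * n / 2) := Nat.pow_le_pow_right two_pos (by omega)
  calc _ ≤ n ^ i * (n ^ 2 * 2 ^ (3 * n / 2)) := Nat.mul_le_mul a1 (Nat.mul_le_mul a2 a3)
    _ = n ^ (i + 1 + 1) * 2 ^ (3 * n / 2) := by ring
    _ ≤ 2 ^ (n / 2) * 2 ^ (3 * n / 2) := Nat.mul_le_mul_right _ h2
    _ ≤ 2 ^ (2 * n) := by rw [← pow_add]; exact Nat.pow_le_pow_right two_pos (by omega)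
    _ = 4 ^ n := by rw [pow_mul]; rfl

theorem pow_le (n j : ℕ) : n ^ j ≤ 2 ^ (j * (Nat.log 2 n + 1)) := by
  rw [mul_comm, pow_mul]
  exact Nat.pow_le_pow_left (Nat.lt_pow_succ_log_self (by decide) n).le j

theorem numU_of {n j k e : ℕ} (h1 : Adm (n - j) k) (h2 : Ub (n - j) k ≤ 2 ^ e)
    (h3 : j * (Nat.log 2 n + 1) + e ≤ 2 * n) : NumU n j := by
  refine ⟨k, h1, ?_⟩
  calc _ ≤ 2 ^ (j * (Nat.log 2 n + 1)) * 2 ^ e :=
        Nat.mul_le_mul ((Nat.descFactorial_le_pow n j).trans (pow_le n j)) h2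
    _ ≤ 2 ^ (2 * n) := by rw [← pow_add]; exact Nat.pow_le_pow_right two_pos h3
    _ = 4 ^ n := by rw [pow_mul]; rfl

theorem three_le {n r : ℕ} (h : Cert n r) : 3 ≤ r := by
  obtain ⟨p, q, -, -, -, -, -, h⟩ := h
  omega

end NRH

open NRH in
theorem num_all4 (n : ℕ) (hn : 9 ≤ n) : Num n := by
  by_cases h1 : n < 300
  · exact num_A n hn h1
  by_cases h2 : n < 600
  · obtain ⟨r, hr, hc, h⟩ := num_B n (by omega) h2
    refine ⟨r, hc, fun j hj => ⟨h j hj, numI_of (by omega) ?_⟩⟩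
    calc n ^ (j + 1) ≤ n ^ 16 := Nat.pow_le_pow_right (by omega) (by omega)
      _ ≤ 600 ^ 16 := Nat.pow_le_pow_left h2.le 16
      _ ≤ 2 ^ 150 := by norm_num
      _ ≤ 2 ^ (n / 2) := Nat.pow_le_pow_right two_pos (by omega)
  have l1 : 9 ≤ Nat.log 2 n := Nat.le_log_of_pow_le (by decide) (by omega)
  by_cases h3 : n < 530000
  · obtain ⟨r, hc, h⟩ := cert_mid n (by omega) h3
    have r3 := three_le hc
    refine ⟨r, hc, fun j hj => ?_⟩
    have p1 := pow_le n (j + 1)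
    obtain ⟨L, hL⟩ : ∃ L, Nat.log 2 n + 1 = L + 10 := ⟨Nat.log 2 n - 9, by omega⟩
    obtain ⟨r, rfl⟩ : ∃ r', r = r' + 3 := ⟨r - 3, by omega⟩
    rw [hL, show r + 3 - 1 = r + 2 from rfl, show 8 * (L + 10) - 15 = 8 * L + 65 by omega] at h
    have a1 : j * (8 * L + 65) ≤ n := (Nat.mul_le_mul_right _ (by omega)).trans h
    have a2 : j * 65 ≤ n := (Nat.mul_le_mul_left _ (by omega)).trans a1
    obtain ⟨k, k1, k2⟩ := rate_mid (n - j) (by omega) (by omega)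
    refine ⟨numU_of k1 k2 ?_, numI_of (by omega) (p1.trans (Nat.pow_le_pow_right two_pos ?_))⟩
    · rw [hL]
      have : j * (8 * L + 65) = 8 * (j * L) + 65 * j := by ring
      have : j * (L + 10) = j * L + 10 * j := by ring
      omega
    · rw [hL, Nat.le_div_iff_mul_le two_pos]
      have : (j + 1) * (L + 10) ≤ (r + 3) * (L + 10) := Nat.mul_le_mul_right _ (by omega)
      nlinarith [Nat.zero_le (r * L)]
  · obtain ⟨r, hc, h⟩ := cert_large n (by omega)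
    refine ⟨r, hc, fun j hj => ?_⟩
    have l2 : 19 ≤ Nat.log 2 n := Nat.le_log_of_pow_le (by decide) (by omega)
    have a1 : (j + 1) * (Nat.log 2 n + 1) ≤ r * (Nat.log 2 n + 1) := Nat.mul_le_mul_right _ hj
    have a2 : j * (Nat.log 2 n + 1) ≤ (j + 1) * (Nat.log 2 n + 1) :=
      Nat.mul_le_mul_right _ (by omega)
    have a3 : j * 20 ≤ j * (Nat.log 2 n + 1) := Nat.mul_le_mul_left _ (by omega)
    obtain ⟨k, k1, k2⟩ := rate_large (n - j) (by omega)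
    exact ⟨numU_of k1 k2 (by omega),
      numI_of (by omega) ((pow_le n (j + 1)).trans (Nat.pow_le_pow_right two_pos (by omega)))⟩

end Cfsg.Agent.P4n
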