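import Cfsg.Agent.P4n.Uk
import Cfsg.Agent.P4n.Imp
import Cfsg.Agent.P4n.NR
import Cfsg.Agent.ChS.Mil
import Cfsg.Agent.ChS.Tow

/-! The order of a primitive group not containing the alternating group. -/

set_option autoImplicit false

namespace Cfsg.Agent.P4n

open Equiv MulAction ChS

variable {α : Type} [Fintype α] [DecidableEq α]

theorem step4 (G : Subgroup (Perm α)) (ih : IH4 (Fintype.card α)) {i : ℕ}
    (hin : i + 2 ≤ Fintype.card α) (hG : IsMultiplyPretransitive G α (i + 2))
    (hG' : ¬ IsMultiplyPretransitive G α (i + 3)) (hU : NumU (Fintype.card α) (i + 1))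
    (hI : NumI (Fintype.card α) (i + 1)) : Nat.card G ≤ 4 ^ Fintype.card α := by
  have hGi : IsMultiplyPretransitive G α i :=
    isMultiplyPretransitive_of_le (n := i + 2) (by omega) (by simpa using hin)
  obtain ⟨Y, _, _, L, φ, -, hY, hc, -, ht⟩ := tower i G hGi (by omega)
  have h2 : IsMultiplyPretransitive L Y 2 := (ht 2).2 (by rwa [add_comm])
  have h3 : ¬ IsMultiplyPretransitive L Y 3 := fun h => hG' (by rw [add_comm]; exact (ht 3).1 h)
  have h1 : IsPretransitive L Y := is_one_pretransitive_iff.1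
    (isMultiplyPretransitive_of_le (n := 2) (by omega) (by rw [Nat.card_eq_fintype_card]; omega))
  obtain ⟨x₀⟩ : Nonempty Y := Fintype.card_pos_iff.1 (by omega)
  have hH2 : ¬ IsMultiplyPretransitive (St L x₀) {y // y ≠ x₀} 2 :=
    fun h => h3 ((St_multi L h1 x₀ 2).1 h)
  have hZ := card_ne x₀
  by_cases hp : IsPreprimitive (St L x₀) {y // y ≠ x₀}
  · have hcard : Nat.card G =
        (Fintype.card α).descFactorial (i + 1) * Nat.card (St L x₀) := by
      rw [hc, card_St L h1 x₀, Nat.descFactorial_succ,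
        show Fintype.card α - i = Fintype.card Y by omega]
      ring
    obtain ⟨k, k1, k2⟩ := hU
    rw [show Fintype.card α - (i + 1) = Fintype.card {y // y ≠ x₀} by omega] at k1 k2
    rw [hcard]
    exact (Nat.mul_le_mul_left _ (uni_card (St L x₀) hp hH2 k1)).trans k2
  · obtain ⟨b, s, hb, hs, hbs, h⟩ := imp_bound L h2 x₀ (by omega) hp
      fun β _ _ X hβ => ih β X (by omega)
    obtain ⟨y, y1, y2⟩ := hI b s (by omega) hb hs (by omega)
    rw [hc]
    exact (Nat.mul_le_mul_left _ (h y y1)).trans y2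

theorem prim4 (G : Subgroup (Perm α)) (hG : IsPreprimitive G α)
    (hA : ¬ alternatingGroup α ≤ G) (ih : IH4 (Fintype.card α)) :
    Nat.card G ≤ 4 ^ Fintype.card α := by
  classical
  by_cases h8 : Fintype.card α ≤ 8
  · have h := Subgroup.card_le_card_group G
    rw [Nat.card_eq_fintype_card (α := Perm α), Fintype.card_perm] at h
    refine h.trans ?_
    generalize Fintype.card α = n at h8
    interval_cases n <;> decide
  obtain ⟨r, hC, hN⟩ := num_all4 (Fintype.card α) (by omega)
  have hr : r + 5 ≤ Fintype.card α := by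
    obtain ⟨p, q, -, h5, h1, -, hn, -⟩ := hC
    have : 1 * 5 ≤ q * p := Nat.mul_le_mul h1 h5
    omega
  have hex : ∃ t, ¬ IsMultiplyPretransitive G α (t + 1) :=
    ⟨r, fun h => hA (alt_le_of_cert G hC h)⟩
  have hle : Nat.find hex ≤ r := Nat.find_min' hex fun h => hA (alt_le_of_cert G hC h)
  have h0 : Nat.find hex ≠ 0 := fun h => by
    have h1 := Nat.find_spec hex
    rw [h] at h1
    exact h1 (is_one_pretransitive_iff.2 hG.toIsPretransitive)
  obtain ⟨j, hj⟩ := Nat.exists_eq_succ_of_ne_zero h0
  have hn2 : ¬ IsMultiplyPretransitive G α (j + 2) := by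
    have h1 := Nat.find_spec hex
    rwa [hj] at h1
  have hn1 : IsMultiplyPretransitive G α (j + 1) :=
    not_not.1 (Nat.find_min hex (m := j) (by omega))
  obtain ⟨hU, hI⟩ := hN j (by omega)
  rcases j with _ | i
  · obtain ⟨k, k1, k2⟩ := hU
    rw [Nat.sub_zero] at k1 k2
    rw [Nat.descFactorial_zero, one_mul] at k2
    exact (uni_card G hG hn2 k1).trans k2
  · exact step4 G ih (i := i) (by omega) hn1 hn2 hU hI

theorem ih4_all (n : ℕ) : IH4 n := by
  induction n with
  | zero => intro β _ _ _ h; omega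
  | succ n ihn =>
    intro β _ _ X h hX hA
    by_cases h' : Fintype.card β < n
    · exact ihn β X h' hX hA
    · have : Fintype.card β = n := by omega
      exact prim4 X hX hA (this ▸ ihn)

end Cfsg.Agent.P4n
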