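import Cfsg.Agent.P4n.Defs
import Cfsg.Agent.Perm.Babai

/-! Minimal degree of a primitive, not 2-transitive group. See stubs/Cfsg/Agent/P4n/PLAN.md, section MinU. -/

set_option autoImplicit false

namespace Cfsg.Agent.P4n

open Equiv MulAction ChS

namespace MinUH

open Finset Cfsg.Agent.Perm Cfsg.Agent.Perm.Babai

variable {G Ω : Type*} [Group G] [MulAction G Ω] [Fintype Ω]

open Classical in
theorem compl_suborbit [Finite G] (hprim : IsPreprimitive G Ω)
    (h2 : ¬ IsMultiplyPretransitive G Ω 2) {z a : Ω} (haz : a ≠ z) :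
    Fintype.card Ω + #(univ.filter fun b => ¬ ∃ h : G, h • z = z ∧ h • a = b) ≤
      #(univ.filter fun b => ¬ ∃ h : G, h • z = z ∧ h • a = b) ^ 2 + 1 := by
  have hc := card_filter_add_card_filter_not (s := univ) fun b => ∃ h : G, h • z = z ∧ h • a = b
  rw [card_univ] at hc
  let R : Ω → Ω → Prop := fun u v => ¬ ∃ h : G, h • z = u ∧ h • a = v
  have hR : ∀ (h : G) u v, R u v → R (h • u) (h • v) := fun h u v H ⟨k, k1, k2⟩ =>
    H ⟨h⁻¹ * k, by rw [mul_smul, k1, inv_smul_smul], by rw [mul_smul, k2, inv_smul_smul]⟩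
  by_cases ht : ∀ u v w, R u v → R v w → R u w
  · let S : Submonoid G := ⟨⟨{h | R z (h • z)}, fun {h k} h1 k1 =>
      ht _ _ _ h1 (by simpa [mul_smul] using hR h _ _ k1)⟩, fun ⟨k, k1, k2⟩ =>
        haz (smul_left_cancel k (k2.trans ((one_smul _ _).trans k1.symm)))⟩
    let H : Subgroup G := ⟨S, fun {h} hh => Submonoid.powers_le.2 hh
      (mem_powers_iff_mem_zpowers.2 (inv_mem (Subgroup.mem_zpowers h)))⟩
    have hH : ∀ h, h ∈ H ↔ R z (h • z) := fun _ => Iff.rfl
    exfalso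
    rcases eq_stabilizer_or_eq_top hprim z (H := H) fun h hh => (hH h).2 (by
      simpa [mem_stabilizer_iff.1 hh] using (hH 1).1 (one_mem H)) with h | h
    · have key : ∀ u v, u ≠ v → ∃ k : G, k • z = u ∧ k • a = v := fun u v huv => by
        obtain ⟨k, rfl⟩ := exists_smul_eq G z u
        obtain ⟨l, rfl⟩ := exists_smul_eq G z v
        by_contra hc
        have := hR k⁻¹ _ _ hc
        rw [inv_smul_smul, smul_smul, ← hH, h, mem_stabilizer_iff, mul_smul, inv_smul_eq_iff] at this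
        exact huv this.symm
      refine h2 (is_two_pretransitive_iff.2 fun {u v u' v'} h1 h3 => ?_)
      obtain ⟨k, rfl, rfl⟩ := key u v h1
      obtain ⟨l, rfl, rfl⟩ := key u' v' h3
      exact ⟨l * k⁻¹, by simp [mul_smul], by simp [mul_smul]⟩
    · obtain ⟨k, rfl⟩ := exists_smul_eq G z a
      exact (hH k).1 (h ▸ trivial) ⟨1, by simp⟩
  push Not at ht
  obtain ⟨u, v, w, h1, h3, h4⟩ := ht
  obtain ⟨k, rfl, rfl⟩ := not_not.1 h4
  have hr : ∀ c, c ∈ univ.filter (R c) := fun c =>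
    mem_filter.2 ⟨mem_univ _, fun ⟨h, e1, e2⟩ => haz (smul_left_cancel h (e2.trans e1.symm))⟩
  have : #(univ.filter fun b => ∃ h : G, h • z = z ∧ h • a = b) ≤
      #((univ.filter (R z)).erase z) * (#(univ.filter (R z)) - 1) := by
    refine (card_le_card (t := ((univ.filter (R z)).erase z).biUnion fun c => (univ.filter (R c)).erase c)
      fun b hb => ?_).trans (card_biUnion_le_card_mul _ _ _ fun c _ => by
        rw [card_erase_of_mem (hr c)]
        exact Nat.sub_le_sub_right (card_filter_le R hR c z) 1)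
    obtain ⟨l, l1, rfl⟩ := (mem_filter.1 hb).2
    have e1 := hR (l * k⁻¹) _ _ h1
    have e2 := hR (l * k⁻¹) _ _ h3
    simp only [mul_smul, inv_smul_smul, l1] at e1 e2
    exact mem_biUnion.2 ⟨_, mem_erase.2 ⟨fun e => (e ▸ e2 :) ⟨l, l1, rfl⟩, mem_filter.2 ⟨mem_univ _, e1⟩⟩,
      mem_erase.2 ⟨fun e => e1 ⟨l, l1, e⟩, mem_filter.2 ⟨mem_univ _, e2⟩⟩⟩
  rw [card_erase_of_mem (hr z)] at this
  change _ + #(univ.filter (R z)) = _ at hc
  change _ + #(univ.filter (R z)) ≤ #(univ.filter (R z)) ^ 2 + 1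
  obtain ⟨m, hm⟩ := Nat.exists_eq_add_one_of_ne_zero (card_ne_zero_of_mem (hr z))
  rw [hm] at this hc ⊢
  rw [Nat.add_sub_cancel] at this
  nlinarith

theorem two_le_psi {x y : Ω} (hxy : x ≠ y) : 2 ≤ #(psi G x y) :=
  one_lt_card.2 ⟨x, mem_psi.2 fun h h1 h2 => hxy (h1.symm.trans h2), y,
    mem_psi.2 fun h h1 h2 => hxy (smul_left_cancel h (h2.trans h1.symm)), hxy⟩

theorem card_le_psi [Finite G] (hprim : IsPreprimitive G Ω) (h2 : ¬ IsMultiplyPretransitive G Ω 2)
    {x y : Ω} (hxy : x ≠ y) : Fintype.card Ω + 6 * #(psi G x y) ≤ 4 * #(psi G x y) ^ 2 + 3 := by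
  classical
  have h2ψ := two_le_psi (G := G) hxy
  let A : Ω → Ω → Prop := fun a b => ∃ h : G, (h • x = a ∧ h • y = b) ∨ (h • x = b ∧ h • y = a)
  have hA : ∀ (h : G) u v, A u v → A (h • u) (h • v) := fun h u v ⟨k, hk⟩ =>
    ⟨h * k, by simpa [mul_smul] using hk⟩
  have hAs : ∀ {u v}, A u v → A v u := fun ⟨k, hk⟩ => ⟨k, hk.symm⟩
  have hD : ∀ {a b}, A a b → #(psi G a b) ≤ #(psi G x y) := by
    rintro _ _ ⟨h, ⟨rfl, rfl⟩ | ⟨rfl, rfl⟩⟩
    · exact card_psi_smul h x y
    · exact (card_le_card (psi_symm _ _)).trans (card_psi_smul h x y)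
  have hconn : ∀ T : Ω → Prop, (∀ u v, T u → A u v → T v) → ∀ u v, T u → T v := by
    intro T hT u v
    rcases prim_rel hprim (fun u v => ∀ T : Ω → Prop, (∀ u v, T u → A u v → T v) → (T u ↔ T v))
      ⟨fun _ _ _ => Iff.rfl, fun h T hT => (h T hT).symm, fun h k T hT => (h T hT).trans (k T hT)⟩
      (fun g u v h T hT => h (fun w => T (g • w)) fun _ _ h1 h3 => hT _ _ h1 (hA g _ _ h3)) with h | h
    · exact absurd (h x y fun T hT => ⟨fun h => hT _ _ h ⟨1, by simp⟩,
        fun h => hT _ _ h ⟨1, by simp⟩⟩) hxy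
    · exact (h u v T hT).1
  by_cases hd : ∀ b, b = x ∨ A x b ∨ ∃ c, A x c ∧ A c b
  · have h3 : ∀ b, #(psi G x b) ≤ 2 * #(psi G x y) := fun b => by
      rcases hd b with rfl | h | ⟨c, h, k⟩
      · rw [show psi G b b = ∅ from eq_empty_of_forall_notMem fun z hz =>
          mem_psi.1 hz 1 (by simp) (by simp)]
        simp
      · have := hD h
        omega
      · have := card_psi_le (G := G) x c b
        have := hD h
        have := hD k
        omega
    have e : ∑ z : Ω, #(univ.filter fun b : Ω => ¬ ∃ h : G, h • z = z ∧ h • x = b) = ∑ b : Ω, #(psi G x b) := by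
      simp only [psi, card_filter]
      exact sum_comm
    rw [← add_sum_erase _ _ (mem_univ x), ← add_sum_erase _ (fun b => #(psi G x b)) (mem_univ x),
      show psi G x x = ∅ from eq_empty_of_forall_notMem fun z hz => mem_psi.1 hz 1 (by simp) (by simp)] at e
    have e1 : 0 < #(univ.filter fun b => ¬ ∃ h : G, h • x = x ∧ h • x = b) :=
      card_pos.2 ⟨y, mem_filter.2 ⟨mem_univ _, fun ⟨h, k1, k2⟩ => hxy (k1.symm.trans k2)⟩⟩
    obtain ⟨z, hz, hz'⟩ := exists_lt_of_sum_lt (s := univ.erase x)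
      (f := fun z => #(univ.filter fun b => ¬ ∃ h : G, h • z = z ∧ h • x = b))
      (g := fun _ => 2 * #(psi G x y)) (lt_of_lt_of_le (by simp only [card_empty] at e; omega)
        (sum_le_sum (s := univ.erase x) fun b _ => h3 b))
    have k := compl_suborbit hprim h2 (mem_erase.1 hz).1.symm
    obtain ⟨d, hd⟩ := Nat.exists_eq_add_of_lt hz'
    have : 4 * #(psi G x y) ^ 2 = (2 * #(psi G x y)) ^ 2 := by ring
    rw [this, show 6 * #(psi G x y) = 3 * (2 * #(psi G x y)) by ring, hd]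
    nlinarith [Nat.le_mul_self d]
  obtain ⟨c, b, hc, hcb, hb⟩ : ∃ c b, (c = x ∨ A x c ∨ ∃ d, A x d ∧ A d c) ∧ A c b ∧
      ¬ (b = x ∨ A x b ∨ ∃ d, A x d ∧ A d b) := by
    by_contra hc
    push Not at hc
    exact hd fun b => hconn (fun b => b = x ∨ A x b ∨ ∃ c, A x c ∧ A c b)
      hc x b (Or.inl rfl)
  push Not at hb
  obtain ⟨d, hd1, hd2⟩ := (hc.resolve_left fun h => hb.2.1 (h ▸ hcb)).resolve_left
    fun h => hb.2.2 c h hcb
  have h3 : #(univ.filter (A x)) + #(univ.filter (A b)) ≤ #(psi G x b) := by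
    rw [← card_union_of_disjoint (disjoint_filter.2 fun z _ h1 h3 => hb.2.2 z h1 (hAs h3))]
    refine card_le_card fun z hz => mem_psi.2 fun h h1 h3 => ?_
    rcases mem_union.1 hz with hz | hz
    · exact hb.2.2 z (mem_filter.1 hz).2 (hAs (h1 ▸ h3 ▸ hA h _ _ (mem_filter.1 hz).2))
    · refine hb.2.2 z ?_ (hAs (mem_filter.1 hz).2)
      have := hA h⁻¹ _ _ (mem_filter.1 hz).2
      rwa [inv_smul_eq_iff.2 h1.symm, inv_smul_eq_iff.2 h3.symm] at this
  have h4 := card_filter_le A hA x b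
  have h5 := card_psi_le (G := G) x d b
  have h6 := card_psi_le (G := G) d c b
  have := hD hd1
  have := hD hd2
  have := hD hcb
  have h7 : #(univ.erase x) ≤ #(univ.filter (A x)) * #(psi G x y) := by
    refine (card_le_card (t := (univ.filter (A x)).biUnion fun c => psi G x c)
      fun z hz => ?_).trans (card_biUnion_le_card_mul _ _ _ fun c hc => hD (mem_filter.1 hc).2)
    by_contra hz'
    simp only [mem_biUnion, mem_filter, mem_univ, true_and, mem_psi, not_exists, not_and,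
      not_forall, not_not] at hz'
    obtain ⟨h, h1, h8⟩ := hconn (fun u => ∃ h : G, h • z = z ∧ h • x = u) (by
      rintro _ v ⟨h, h1, rfl⟩ h8
      obtain ⟨k, k1, k2⟩ := hz' (h⁻¹ • v) (by simpa using hA h⁻¹ _ _ h8)
      exact ⟨h * k, by rw [mul_smul, k1, h1], by rw [mul_smul, k2, smul_inv_smul]⟩) x z ⟨1, by simp⟩
    exact (mem_erase.1 hz).1 (smul_left_cancel h (h1.trans h8.symm))
  rw [card_erase_of_mem (mem_univ x), card_univ] at h7
  have h8 : Fintype.card Ω ≤ #(univ.filter (A x)) * #(psi G x y) + 1 := by omega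
  nlinarith

end MinUH

variable {α : Type} [Fintype α] [DecidableEq α]

theorem min_uni {C : Subgroup (Perm α)} (hG : IsPreprimitive C α)
    (h2 : ¬ IsMultiplyPretransitive C α 2) {k : ℕ} (hk : Adm (Fintype.card α) k) {a : Perm α}
    (ha : a ∈ C) (h1 : a ≠ 1) : k < a.support.card := by
  obtain ⟨x, hx⟩ : ∃ x, x ≠ a x := by
    by_contra h
    push Not at h
    exact h1 (Equiv.ext fun x => (h x).symm)
  have e1 := MinUH.card_le_psi hG h2 hx
  have e2 := MinUH.two_le_psi (G := C) hx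
  have e3 : (Cfsg.Agent.Perm.Babai.psi C x (a x)).card ≤ a.support.card :=
    Finset.card_le_card fun z hz => Equiv.Perm.mem_support.2 fun e => Cfsg.Agent.Perm.Babai.mem_psi.1 hz ⟨a, ha⟩ e rfl
  by_contra h
  obtain ⟨d, rfl⟩ := Nat.exists_eq_add_of_le (e3.trans (not_lt.1 h))
  unfold Adm at hk
  nlinarith

end Cfsg.Agent.P4n
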