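import Cfsg.Agent.P4n.Defs
import Cfsg.Agent.ChS.Mi
import Cfsg.Agent.ChS.Ml

/-! Elements with two cycles: the rank 3 configuration. -/

set_option autoImplicit false
set_option linter.unusedSectionVars false

namespace Cfsg.Agent.P4n

open Equiv MulAction ChS

variable {α : Type} [Fintype α] [DecidableEq α]

namespace QaH

variable {C : Subgroup (Perm α)} {p : ℕ}

/-- elements with two cycles of length `p` -/
def A (C : Subgroup (Perm α)) (p : ℕ) : Set (Perm α) :=
  {b | b ∈ C ∧ orderOf b = p ∧ b.support.card = 2 * p}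

/-- the group generated by those fixing `x` -/
def H (C : Subgroup (Perm α)) (p : ℕ) (x : α) : Subgroup (Perm α) :=
  Subgroup.closure {a | a ∈ A C p ∧ a x = x}

/-- same orbit of the stabiliser of `x` -/
def Sim (C : Subgroup (Perm α)) (x y z : α) : Prop := ∃ g ∈ C, g x = x ∧ g y = z

theorem Sim.refl (x y : α) : Sim C x y y := ⟨1, C.one_mem, rfl, rfl⟩

theorem Sim.symm {x y z : α} (h : Sim C x y z) : Sim C x z y := by
  obtain ⟨g, hg, h1, h2⟩ := h
  exact ⟨g⁻¹, C.inv_mem hg, Perm.inv_eq_iff_eq.2 h1.symm, Perm.inv_eq_iff_eq.2 h2.symm⟩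

theorem Sim.trans {x y z w : α} (h : Sim C x y z) (h' : Sim C x z w) : Sim C x y w := by
  obtain ⟨g, hg, h1, h2⟩ := h
  obtain ⟨g', hg', h1', h2'⟩ := h'
  exact ⟨g' * g, C.mul_mem hg' hg, by rw [Perm.mul_apply, h1, h1'], by rw [Perm.mul_apply, h2, h2']⟩

theorem H_mem {x : α} {g : Perm α} (hg : g ∈ H C p x) : g ∈ C ∧ g x = x := by
  have : H C p x ≤ C ⊓ stabilizer (Perm α) x :=
    (Subgroup.closure_le _).2 fun a ha => ⟨ha.1.1, ha.2⟩
  exact this hg

theorem sim_of_H {x y z : α} (h : ∃ g ∈ H C p x, g y = z) : Sim C x y z := by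
  obtain ⟨g, hg, e⟩ := h
  exact ⟨g, (H_mem hg).1, (H_mem hg).2, e⟩

theorem gen_mem {x : α} {b : Perm α} (hb : b ∈ A C p) (hx : b x = x) : b ∈ H C p x :=
  Subgroup.subset_closure (show b ∈ A C p ∧ b x = x from ⟨hb, hx⟩)

theorem H_of_cyc {x u w : α} {b : Perm α} (hb : b ∈ A C p) (hx : b x = x) (h : b.SameCycle u w) :
    ∃ g ∈ H C p x, g u = w := by
  obtain ⟨i, hi⟩ := h
  exact ⟨b ^ i, Subgroup.zpow_mem _ (gen_mem hb hx) i, hi⟩

theorem A_conj {b g : Perm α} (hb : b ∈ A C p) (hg : g ∈ C) : g * b * g⁻¹ ∈ A C p :=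
  ⟨C.mul_mem (C.mul_mem hg hb.1) (C.inv_mem hg), by rw [MiH.ord_conj, hb.2.1],
    by rw [Perm.card_support_conj, hb.2.2]⟩

theorem exists_smul (hG : IsPreprimitive C α) (x y : α) : ∃ g ∈ C, g x = y := by
  obtain ⟨g, hg⟩ := hG.toIsPretransitive.exists_smul_eq x y
  exact ⟨g, g.2, hg⟩

theorem not_sim (hG : IsPreprimitive C α) (h2 : ¬ IsMultiplyPretransitive C α 2) (x : α) :
    ∃ y z, y ≠ x ∧ z ≠ x ∧ ¬ Sim C x y z := by
  by_contra hc
  push Not at hc
  refine h2 (is_two_pretransitive_iff.2 fun {a b c d} hab hcd => ?_)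
  obtain ⟨g, hg, e⟩ := exists_smul hG a x
  obtain ⟨g', hg', e'⟩ := exists_smul hG c x
  obtain ⟨k, hk, k1, k2⟩ := hc (g b) (g' d) (fun h => hab (g.injective (e.trans h.symm)))
    (fun h => hcd (g'.injective (e'.trans h.symm)))
  refine ⟨⟨g'⁻¹ * k * g, C.mul_mem (C.mul_mem (C.inv_mem hg') hk) hg⟩, ?_, ?_⟩
  · change g'⁻¹ (k (g a)) = c
    rw [e, k1, Perm.inv_eq_iff_eq, e']
  · change g'⁻¹ (k (g b)) = d
    rw [k2, Perm.inv_eq_iff_eq]

theorem card_cyc (hp : p.Prime) {b : Perm α} (hb : orderOf b = p) {u : α} (hu : u ∈ b.support) :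
    (b.cycleOf u).support.card = p := by
  have hc := Perm.isCycle_cycleOf b (Perm.mem_support.1 hu)
  have h1 := Perm.orderOf_cycleOf_dvd_orderOf b u
  rw [hc.orderOf, hb] at h1
  have h2 := hc.two_le_card_support
  rcases (Nat.dvd_prime hp).1 h1 with h | h
  · omega
  · exact h

theorem three (hp : p.Prime) {b : Perm α} (hb : b ∈ A C p) {u v w : α} (hu : u ∈ b.support)
    (hv : v ∈ b.support) (hw : w ∈ b.support) (huv : ¬ b.SameCycle u v) :
    b.SameCycle u w ∨ b.SameCycle v w := by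
  by_contra hc
  push Not at hc
  have hd : ∀ {y z : α}, ¬ b.SameCycle y z → Disjoint (b.cycleOf y).support (b.cycleOf z).support := by
    intro y z h
    rw [Finset.disjoint_left]
    intro t h1 h2
    exact h ((Perm.mem_support_cycleOf_iff.1 h1).1.trans (Perm.mem_support_cycleOf_iff.1 h2).1.symm)
  have hsub : (b.cycleOf u).support ∪ (b.cycleOf v).support ∪ (b.cycleOf w).support ⊆ b.support :=
    Finset.union_subset (Finset.union_subset (Perm.support_cycleOf_le b u) (Perm.support_cycleOf_le b v))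
      (Perm.support_cycleOf_le b w)
  have := Finset.card_le_card hsub
  rw [Finset.card_union_of_disjoint (Finset.disjoint_union_left.2 ⟨hd hc.1, hd hc.2⟩),
    Finset.card_union_of_disjoint (hd huv), card_cyc hp hb.2.1 hu, card_cyc hp hb.2.1 hv,
    card_cyc hp hb.2.1 hw, hb.2.2] at this
  have := hp.pos
  omega

theorem two_reps (hp : p.Prime) {b : Perm α} (hb : b ∈ A C p) :
    ∃ u ∈ b.support, ∃ v ∈ b.support, ∀ w ∈ b.support, b.SameCycle u w ∨ b.SameCycle v w := by
  obtain ⟨u, hu⟩ : b.support.Nonempty := by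
    rw [← Finset.card_pos, hb.2.2]
    have := hp.pos
    omega
  by_cases h : ∃ v ∈ b.support, ¬ b.SameCycle u v
  · obtain ⟨v, hv, huv⟩ := h
    exact ⟨u, hu, v, hv, fun w hw => three hp hb hu hv hw huv⟩
  · push Not at h
    exact ⟨u, hu, u, hu, fun w hw => .inl (h w hw)⟩

theorem ex_fix (hG : IsPreprimitive C α) (hn : 2 * p < Fintype.card α) {a : Perm α} (ha : a ∈ A C p)
    (x : α) : ∃ b ∈ A C p, b x = x := by
  obtain ⟨y, -, hy⟩ := Finset.exists_mem_notMem_of_card_lt_card (s := a.support) (t := Finset.univ)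
    (by rw [ha.2.2, Finset.card_univ]; exact hn)
  obtain ⟨g, hg, e⟩ := exists_smul hG y x
  refine ⟨_, A_conj ha hg, ?_⟩
  rw [Perm.mul_apply, Perm.mul_apply, Perm.inv_eq_iff_eq.2 e.symm, Perm.notMem_support.1 hy, e]

theorem conj_fix {g b : Perm α} {u : α} : (g * b * g⁻¹) (g u) = g u ↔ b u = u := by simp

theorem moves (hp : p.Prime) (hG : IsPreprimitive C α) (hn : 2 * p < Fintype.card α) {a : Perm α}
    (ha : a ∈ A C p) {x y : α} (hy : y ≠ x) : ∃ b ∈ A C p, b x = x ∧ b y ≠ y := by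
  classical
  by_contra hc
  push Not at hc
  let F : α → Finset (Perm α) := fun u => Finset.univ.filter fun b => b ∈ A C p ∧ b u = u
  have hle : ∀ u v, (F u).card ≤ (F v).card := by
    intro u v
    obtain ⟨g, hg, rfl⟩ := exists_smul hG u v
    refine Finset.card_le_card_of_injOn (fun b => g * b * g⁻¹) (fun b hb => ?_) (fun b _ b' _ e => ?_)
    · simp only [F, Finset.coe_filter, Finset.mem_univ, true_and, Set.mem_ofPred_eq] at hb ⊢
      exact ⟨A_conj hb.1 hg, conj_fix.2 hb.2⟩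
    · simpa using e
  have hxy : F x = F y := by
    refine Finset.eq_of_subset_of_card_le (fun b hb => ?_) (hle y x)
    simp only [F, Finset.mem_filter, Finset.mem_univ, true_and] at hb ⊢
    exact ⟨hb.1, hc b hb.1 hb.2⟩
  have hall := rel_all_of_preprimitive hG (fun u v => ∀ b ∈ A C p, b u = u ↔ b v = v)
    ⟨fun _ _ _ => Iff.rfl, fun h b hb => (h b hb).symm, fun h h' b hb => (h b hb).trans (h' b hb)⟩
    (fun g hg u v h b hb => by
      have := h _ (A_conj hb (C.inv_mem hg))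
      rw [← conj_fix (g := g), ← conj_fix (g := g) (u := v)] at this
      simpa [mul_assoc] using this) hy.symm
    (fun b hb => by
      have := Finset.ext_iff.1 hxy b
      simpa [F, hb] using this)
  obtain ⟨b, hb, hbx⟩ := ex_fix hG hn ha x
  obtain ⟨u, hu, -⟩ := two_reps hp hb
  exact Perm.mem_support.1 hu ((hall x u b hb).1 hbx)

theorem minE (hp : p.Prime) (h3 : 3 ≤ p) (hG : IsPreprimitive C α)
    (h2 : ¬ IsMultiplyPretransitive C α 2) (hn : 2 * p < Fintype.card α) {b : Perm α}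
    (hb : b ∈ A C p) : MinE C p b :=
  ⟨hb.1, hb.2.1, by rw [hb.2.2]; nlinarith, fun c hc ho hs =>
    Finset.eq_of_subset_of_card_le hs
      (by rw [hb.2.2]; exact two_mul_le_support hp hG h2 (by omega) hc ho)⟩

/-- the two cycles of `b` represent the two orbits of the stabiliser of a fixed point -/
theorem core (hp : p.Prime) (h3 : 3 ≤ p) (hC : TwoClosed C) (hG : IsPreprimitive C α)
    (h2 : ¬ IsMultiplyPretransitive C α 2) (hn : 2 * p < Fintype.card α) {b : Perm α}
    (hb : b ∈ A C p) {x : α} (hx : b x = x) :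
    ∃ u ∈ b.support, ∃ v ∈ b.support, ¬ Sim C x u v ∧
      (∀ w ∈ b.support, b.SameCycle u w ∨ b.SameCycle v w) ∧
      ∀ y, y ≠ x → (∃ g ∈ H C p x, g y = u) ∨ ∃ g ∈ H C p x, g y = v := by
  obtain ⟨u, hu, v, hv, huv⟩ := two_reps hp hb
  have key : ∀ y, y ≠ x → (∃ g ∈ H C p x, g y = u) ∨ ∃ g ∈ H C p x, g y = v := by
    intro y hy
    obtain ⟨b', hb', h1, h4⟩ := moves hp hG hn hb hy
    have m := minE hp h3 hG h2 hn hb
    have m' := minE hp h3 hG h2 hn hb'
    obtain ⟨i, hi⟩ := m.cycle_meets hp hC m'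
      (no_disjoint_small hp hC hG h2 m.mem m'.mem m.ord m'.ord m.small m'.small)
      (Perm.mem_support.2 h4)
    have hi' : b' ^ i ∈ H C p x := Subgroup.pow_mem _ (gen_mem hb' h1) i
    refine (huv _ hi).imp (fun h => ?_) (fun h => ?_) <;>
    · obtain ⟨g, hg, e⟩ := H_of_cyc hb hx h.symm
      exact ⟨g * b' ^ i, Subgroup.mul_mem _ hg hi', e⟩
  refine ⟨u, hu, v, hv, fun h => ?_, huv, key⟩
  obtain ⟨y, z, hy, hz, hyz⟩ := not_sim hG h2 x
  have k : ∀ w, w ≠ x → Sim C x w u := fun w hw =>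
    (key w hw).elim sim_of_H (fun e => (sim_of_H e).trans h.symm)
  exact hyz ((k y hy).trans (k z hz).symm)

end QaH

open QaH in
theorem exists_cfg {C : Subgroup (Perm α)} {p : ℕ} (hp : p.Prime) (h3 : 3 ≤ p) (hC : TwoClosed C)
    (hG : IsPreprimitive C α) (h2 : ¬ IsMultiplyPretransitive C α 2) (hn : 2 * p < Fintype.card α)
    {a : Perm α} (ha : a ∈ C) (ho : orderOf a = p) (hs : a.support.card = 2 * p) :
    ∃ (A : Set (Perm α)) (col : α → α → Bool), Cfg2 C p A col := by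
  classical
  have haA : a ∈ A C p := ⟨ha, ho, hs⟩
  obtain ⟨x₀, y₀, h0⟩ : ∃ x₀ y₀ : α, x₀ ≠ y₀ := Fintype.exists_pair_of_one_lt_card (by omega)
  let col : α → α → Bool := fun x y => decide (∃ g ∈ C, g x₀ = x ∧ g y₀ = y)
  have hinv : ∀ g ∈ C, ∀ x y, col (g x) (g y) = col x y := by
    intro g hg x y
    refine decide_eq_decide.2 ⟨?_, ?_⟩
    · rintro ⟨k, hk, k1, k2⟩
      exact ⟨g⁻¹ * k, C.mul_mem (C.inv_mem hg) hk, by simp [k1], by simp [k2]⟩
    · rintro ⟨k, hk, k1, k2⟩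
      exact ⟨g * k, C.mul_mem hg hk, by simp [k1], by simp [k2]⟩
  have hsim : ∀ {x y z}, Sim C x y z → col x y = col x z := by
    rintro x y z ⟨g, hg, h1, rfl⟩
    rw [← hinv g hg x y, h1]
  have htrue : ∀ {x y z}, col x y = true → col x z = true → Sim C x y z := by
    intro x y z hy hz
    obtain ⟨g, hg, rfl, rfl⟩ := of_decide_eq_true hy
    obtain ⟨k, hk, k1, rfl⟩ := of_decide_eq_true hz
    exact ⟨k * g⁻¹, C.mul_mem hk (C.inv_mem hg), by simp [k1], by simp⟩
  -- the representatives of the two orbits have different colours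
  have hne : ∀ {x u v}, ¬ Sim C x u v →
      (∀ y, y ≠ x → (∃ g ∈ H C p x, g y = u) ∨ ∃ g ∈ H C p x, g y = v) → col x u ≠ col x v := by
    intro x u v huv key e
    obtain ⟨g, hg, rfl⟩ := exists_smul hG x₀ x
    have h1 : col (g x₀) (g y₀) = true := decide_eq_true ⟨g, hg, rfl, rfl⟩
    have h4 : col (g x₀) u = true := by
      rcases key (g y₀) (fun h => h0 (g.injective h).symm) with h | h
      · rw [← hsim (sim_of_H h), h1]
      · rw [e, ← hsim (sim_of_H h), h1]
    exact huv (htrue h4 (e ▸ h4))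
  refine ⟨A C p, col, hinv, fun b hb => ⟨hb.1, hb.2.1⟩, ex_fix hG hn haA, ?_, ?_, ?_⟩
  · intro b hb x hx u' hu' v' hv'
    refine ⟨fun h => hsim (sim_of_H (H_of_cyc hb hx h)), fun h => ?_⟩
    obtain ⟨u, hu, v, hv, huv, hcyc, key⟩ := core hp h3 hC hG h2 hn hb hx
    have hn' := hne huv key
    have hc : ∀ {y z}, b.SameCycle y z → col x y = col x z := fun h =>
      hsim (sim_of_H (H_of_cyc hb hx h))
    rcases hcyc u' hu' with k | k <;> rcases hcyc v' hv' with k' | k'
    · exact k.symm.trans k'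
    · exact absurd ((hc k).trans (h.trans (hc k').symm)) hn'
    · exact absurd ((hc k').trans (h.symm.trans (hc k).symm)) hn'
    · exact k.symm.trans k'
  · intro b hb x hx c
    obtain ⟨u, hu, v, hv, huv, -, key⟩ := core hp h3 hC hG h2 hn hb hx
    have hn' := hne huv key
    by_cases h : col x u = c
    · exact ⟨u, hu, h⟩
    · refine ⟨v, hv, ?_⟩
      revert h hn'
      cases col x u <;> cases col x v <;> cases c <;> simp
  · intro x y z hy hz h
    obtain ⟨b, hb, hx⟩ := ex_fix hG hn haA x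
    obtain ⟨u, hu, v, hv, huv, -, key⟩ := core hp h3 hC hG h2 hn hb hx
    have hn' := hne huv key
    have fin : ∀ {w}, (∃ g ∈ H C p x, g y = w) → (∃ g ∈ H C p x, g z = w) →
        ∃ g ∈ H C p x, g y = z := by
      rintro w ⟨g, hg, e⟩ ⟨k, hk, e'⟩
      exact ⟨k⁻¹ * g, Subgroup.mul_mem _ (Subgroup.inv_mem _ hk) hg, by simp [e, ← e']⟩
    rcases key y hy with k | k <;> rcases key z hz with k' | k'
    · exact fin k k'
    · exact absurd ((hsim (sim_of_H k)).symm.trans (h.trans (hsim (sim_of_H k')))) hn'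
    · exact absurd ((hsim (sim_of_H k')).symm.trans (h.symm.trans (hsim (sim_of_H k)))) hn'
    · exact fin k k'

end Cfsg.Agent.P4n
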