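import Cfsg.Agent.P4n.Defs
import Cfsg.Agent.ChS.Mi

/-! Elements with two cycles: homogeneous suborbits. See stubs/Cfsg/Agent/P4n/PLAN.md, section Qb. -/

set_option autoImplicit false

namespace Cfsg.Agent.P4n

open Equiv MulAction ChS

variable {α : Type} [Fintype α] [DecidableEq α]
variable {C : Subgroup (Perm α)} {p : ℕ} {A : Set (Perm α)} {col : α → α → Bool}

theorem Cfg2.card_cyc (hp : p.Prime) (h : Cfg2 C p A col) {a : Perm α} (ha : a ∈ A) {x : α}
    (hx : a x = x) (c : Bool) : (a.support.filter fun u => col x u = c).card = p := by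
  obtain ⟨u, hu, hc⟩ := h.both a ha x hx c
  have h1 := Perm.mem_support.1 hu
  have h2 : (a.support.filter fun u => col x u = c) = (a.cycleOf u).support := by
    ext v
    rw [Finset.mem_filter, Perm.mem_support_cycleOf_iff' h1]
    refine ⟨fun k => (h.cyc a ha x hx u hu v k.1).2 (hc.trans k.2.symm), fun k => ?_⟩
    have hv := k.mem_support_iff.1 hu
    exact ⟨hv, ((h.cyc a ha x hx u hu v hv).1 k).symm.trans hc⟩
  have h3 := (a.isCycle_cycleOf h1).orderOf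
  have h4 := Perm.orderOf_cycleOf_dvd_orderOf a u
  have h5 := Perm.two_le_card_support_cycleOf_iff.2 h1
  rw [(h.mem a ha).2, h3, Nat.dvd_prime hp] at h4
  rw [h2]
  omega

namespace QbH

/-- the cycle of `b` of colour `c` -/
def Bq (col : α → α → Bool) (x : α) (c : Bool) (b : Perm α) : Finset α := b.support.filter fun u => col x u = c

/-- the suborbit of colour `c` -/
def Dq (col : α → α → Bool) (x : α) (c : Bool) : Finset α := Finset.univ.filter fun y => y ≠ x ∧ col x y = c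

variable {x : α} {c : Bool} {b : Perm α}

theorem mem_B {u : α} : u ∈ Bq col x c b ↔ b u ≠ u ∧ col x u = c := by
  rw [Bq, Finset.mem_filter, Perm.mem_support]

theorem mem_D {u : α} : u ∈ Dq col x c ↔ u ≠ x ∧ col x u = c := by simp [Dq]

theorem B_sub (hx : b x = x) {u : α} (hu : u ∈ Bq col x c b) : u ∈ Dq col x c :=
  mem_D.2 ⟨fun e => (mem_B.1 hu).1 (by rw [e, hx]), (mem_B.1 hu).2⟩

theorem fix {w : α} (hw : w ∈ Dq col x c) (hB : w ∉ Bq col x c b) : b w = w := by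
  by_contra k
  exact hB (mem_B.2 ⟨k, (mem_D.1 hw).2⟩)

theorem inv_pow (h : Cfg2 C p A col) (hb : b ∈ A) (i : ℕ) (u v : α) : col ((b ^ i) u) ((b ^ i) v) = col u v :=
  h.inv _ (pow_mem (h.mem b hb).1 i) u v

theorem same (h : Cfg2 C p A col) (hb : b ∈ A) (hx : b x = x) {u v : α} (hu : u ∈ Bq col x c b)
    (hv : v ∈ Bq col x c b) : ∃ i : ℕ, (b ^ i) u = v := by
  obtain ⟨i, -, e⟩ := ((h.cyc b hb x hx u (Finset.mem_filter.1 hu).1 v (Finset.mem_filter.1 hv).1).2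
    ((mem_B.1 hu).2.trans (mem_B.1 hv).2.symm)).exists_pow_eq'
  exact ⟨i, e⟩

theorem pow_mem_B (h : Cfg2 C p A col) (hb : b ∈ A) (hx : b x = x) {u : α} (hu : u ∈ Bq col x c b) (i : ℕ) :
    (b ^ i) u ∈ Bq col x c b := by
  refine Finset.mem_filter.2 ⟨Perm.pow_apply_mem_support.2 (Finset.mem_filter.1 hu).1, ?_⟩
  have := inv_pow h hb i x u
  rw [Perm.pow_apply_eq_self_of_apply_eq_self hx] at this
  exact this.trans (mem_B.1 hu).2

theorem out (h : Cfg2 C p A col) (hb : b ∈ A) (hx : b x = x) {w u v : α} (hw : w ∈ Dq col x c)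
    (hB : w ∉ Bq col x c b) (hu : u ∈ Bq col x c b) (hv : v ∈ Bq col x c b) :
    col w u = col w v ∧ col u w = col v w := by
  obtain ⟨i, rfl⟩ := same h hb hx hu hv
  have e := Perm.pow_apply_eq_self_of_apply_eq_self (fix hw hB) i
  have h1 := inv_pow h hb i w u
  have h2 := inv_pow h hb i u w
  rw [e] at h1 h2
  exact ⟨h1.symm, h2.symm⟩

theorem circ (hp : p.Prime) (h : Cfg2 C p A col) (hb : b ∈ A) (hx : b x = x) (U : Finset α) {u₀ w₀ : α} {t : Bool}
    (hu : u₀ ∈ Bq col x c b) (hU : u₀ ∈ U) (hw : w₀ ∈ Bq col x c b) (hW : w₀ ∉ U)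
    (ht : ∀ w ∈ Bq col x c b, w ∉ U → ∀ v ∈ Bq col x c b, v ∈ U → col w v = t) :
    ∀ y ∈ Bq col x c b, ∀ z ∈ Bq col x c b, y ≠ z → col y z = t := by
  intro y hy z hz hne
  obtain ⟨d, rfl⟩ := same h hb hx hy hz
  have ho := (h.mem b hb).2
  have hd : d.Coprime (orderOf b) := by
    rw [ho, Nat.coprime_comm, hp.coprime_iff_not_dvd]
    intro k
    rw [← ho, orderOf_dvd_iff_pow_eq_one] at k
    exact hne (by rw [k, Perm.one_apply])
  obtain ⟨k, hk⟩ := exists_pow_eq_self_of_coprime hd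
  obtain ⟨j, hj⟩ := same h hb hx hw hu
  have h1 : ∃ m : ℕ, ((b ^ d) ^ m) w₀ ∉ U ∧ ((b ^ d) ^ (m + 1)) w₀ ∈ U := by
    by_contra k0
    push Not at k0
    have k1 : ∀ m : ℕ, ((b ^ d) ^ m) w₀ ∉ U := fun m => by
      induction m with
      | zero => simpa using hW
      | succ m ih => exact k0 m ih
    refine k1 (k * j) ?_
    rw [pow_mul, hk, hj]
    exact hU
  obtain ⟨m, h2, h3⟩ := h1
  have h4 : ∀ m : ℕ, ((b ^ d) ^ m) w₀ ∈ Bq col x c b := fun m => by
    rw [← pow_mul]; exact pow_mem_B h hb hx hw _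
  obtain ⟨i, hi⟩ := same h hb hx hy (h4 m)
  have h5 : ((b ^ d) ^ (m + 1)) w₀ = (b ^ i) ((b ^ d) y) := by
    rw [pow_succ', Perm.mul_apply, ← hi, ← Perm.mul_apply, ← Perm.mul_apply, ← pow_add, ← pow_add, add_comm]
  have h6 := ht _ (h4 m) h2 _ (h4 (m + 1)) h3
  rwa [h5, ← hi, inv_pow h hb] at h6

theorem escape (h : Cfg2 C p A col) (M : Finset α) {v₀ y : α} (hv : v₀ ∈ M) (hD : v₀ ∈ Dq col x c)
    (hy : y ∈ Dq col x c) (hM : y ∉ M) : ∃ b ∈ A, b x = x ∧ ∃ v ∈ M, b v ∉ M := by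
  by_contra k0
  push Not at k0
  obtain ⟨g, hg, e⟩ := h.tr x v₀ y (mem_D.1 hD).1 (mem_D.1 hy).1 ((mem_D.1 hD).2.trans (mem_D.1 hy).2.symm)
  have k1 : ∀ v ∈ M, g v ∈ M := by
    clear e
    induction hg using Subgroup.closure_induction with
    | mem a ha => exact k0 a ha.1 ha.2
    | one => exact fun v hv => hv
    | mul a b _ _ iha ihb => exact fun v hv => iha _ (ihb v hv)
    | inv a _ ih =>
      have k2 : ∀ n : ℕ, ∀ v ∈ M, (a ^ n) v ∈ M := fun n => by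
        induction n with
        | zero => exact fun v hv => hv
        | succ n ihn => exact fun v hv => by rw [pow_succ', Perm.mul_apply]; exact ih _ (ihn v hv)
      have k3 : a⁻¹ = a ^ (orderOf a - 1) := by
        rw [inv_eq_iff_mul_eq_one, ← pow_succ', Nat.sub_add_cancel (orderOf_pos a), pow_orderOf_eq_one]
      rw [k3]
      exact k2 _
  exact hM (e ▸ k1 v₀ hv)

/-- equal closed neighbourhoods -/
def SameN (col : α → α → Bool) (x : α) (c t : Bool) (u u' : α) : Prop :=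
  ∀ y ∈ Dq col x c, (y = u ∨ col y u = t) ↔ (y = u' ∨ col y u' = t)

theorem sameN (h : Cfg2 C p A col) (hb : b ∈ A) (hx : b x = x) {t : Bool}
    (hc : ∀ y ∈ Bq col x c b, ∀ z ∈ Bq col x c b, y ≠ z → col y z = t) {u u' : α} (hu : u ∈ Bq col x c b)
    (hu' : u' ∈ Bq col x c b) : SameN col x c t u u' := fun y hy => by
  by_cases k : y ∈ Bq col x c b
  · exact iff_of_true (or_iff_not_imp_left.2 (hc y k u hu)) (or_iff_not_imp_left.2 (hc y k u' hu'))
  · have h1 : y ≠ u := fun e => k (e ▸ hu)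
    have h2 : y ≠ u' := fun e => k (e ▸ hu')
    rw [(out h hb hx hy k hu hu').1]
    tauto

omit [Fintype α] in
theorem exists_out {M B : Finset α} (hc : B.card ≤ M.card) {w : α} (hw : w ∈ B) (hM : w ∉ M) : ∃ u ∈ M, u ∉ B := by
  by_contra k
  push Not at k
  exact hM (Finset.eq_of_subset_of_card_le k hc ▸ hw)

end QbH

open QbH in
theorem Cfg2.hom (hp : p.Prime) (h : Cfg2 C p A col) (x : α) (c : Bool)
    (hc : p < (Finset.univ.filter fun y => y ≠ x ∧ col x y = c).card) :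
    ∃ t, ∀ y z, y ≠ x → z ≠ x → col x y = c → col x z = c → y ≠ z → col y z = t := by
  classical
  have cB : ∀ b ∈ A, b x = x → (Bq col x c b).card = p := fun b hb hx => h.card_cyc hp hb hx c
  have mv : ∀ b ∈ A, b x = x → ∀ v ∈ Dq col x c, ∀ M : Finset α, v ∈ M → b v ∉ M →
      v ∈ Bq col x c b ∧ b v ∈ Bq col x c b := fun b hb hx v hv M h1 h2 => by
    have k : v ∈ Bq col x c b := by
      by_contra k
      exact h2 (by rwa [fix hv k])
    exact ⟨k, by simpa using pow_mem_B h hb hx k 1⟩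
  obtain ⟨a, ha, hx⟩ := h.ex x
  obtain ⟨u, hu, huc⟩ := h.both a ha x hx c
  have huB : u ∈ Bq col x c a := Finset.mem_filter.2 ⟨hu, huc⟩
  obtain ⟨y₀, hy₀, hy₁⟩ := Finset.exists_mem_notMem_of_card_lt_card (s := Bq col x c a) (t := Dq col x c)
    (by rw [cB a ha hx]; exact hc)
  obtain ⟨b, hb, hbx, v₀, hv₀, hw₀⟩ := escape h _ huB (B_sub hx huB) hy₀ hy₁
  obtain ⟨k1, k2⟩ := mv b hb hbx v₀ (B_sub hx hv₀) _ hv₀ hw₀
  obtain ⟨u₀, hu₀, hu₁⟩ := exists_out (by rw [cB a ha hx, cB b hb hbx]) k2 hw₀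
  have cl := circ hp h ha hx (Bq col x c b) (t := col u₀ (b v₀)) hv₀ k1 hu₀ hu₁ fun w hw hw' v _ hv' =>
    (out h hb hbx (B_sub hx hw) hw' hv' k2).1.trans (out h ha hx (B_sub hbx k2) hw₀ hw hu₀).2
  generalize col u₀ (b v₀) = t at cl
  refine ⟨t, ?_⟩
  let M : Finset α := (Dq col x c).filter fun u => SameN col x c t u v₀
  have mM : ∀ {u}, u ∈ M ↔ u ∈ Dq col x c ∧ SameN col x c t u v₀ := Finset.mem_filter
  have BM : Bq col x c a ⊆ M := fun u hu => mM.2 ⟨B_sub hx hu, sameN h ha hx cl hu hv₀⟩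
  have nb : ∀ w ∈ Dq col x c, ∀ u ∈ M, ∀ u' ∈ M, (w = u ∨ col w u = t) → w ≠ u' → col w u' = t :=
    fun w hw u hu u' hu' k hne => ((((mM.1 hu').2 w hw).2 (((mM.1 hu).2 w hw).1 k))).resolve_left hne
  have clM : ∀ u ∈ M, ∀ u' ∈ M, u ≠ u' → col u u' = t := fun u hu u' hu' hne =>
    nb u (mM.1 hu).1 u hu u' hu' (Or.inl rfl) hne
  have all : ∀ y ∈ Dq col x c, y ∈ M := fun y hy => by
    by_contra hM
    obtain ⟨g, hg, hgx, v, hv, hw⟩ := escape h M (BM hv₀) (B_sub hx hv₀) hy hM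
    obtain ⟨j1, j2⟩ := mv g hg hgx v (mM.1 hv).1 _ hv hw
    obtain ⟨u', hu', hu''⟩ := exists_out (by rw [cB g hg hgx, ← cB a ha hx]; exact Finset.card_le_card BM) j2 hw
    have cl' := circ hp h hg hgx M (t := t) j1 hv j2 hw fun w hw hw' v' hv' hv'' =>
      nb w (B_sub hgx hw) u' hu' v' hv'' (Or.inr ((out h hg hgx (mM.1 hu').1 hu'' hw hv').2.trans
        (clM v' hv'' u' hu' fun e => hu'' (e ▸ hv')))) fun e => hw' (e ▸ hv'')
    exact hw (mM.2 ⟨B_sub hgx j2, fun w hw' => (sameN h hg hgx cl' j2 j1 w hw').trans ((mM.1 hv).2 w hw')⟩)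
  exact fun y z h1 h2 h3 h4 h5 => clM y (all y (mem_D.2 ⟨h1, h3⟩)) z (all z (mem_D.2 ⟨h2, h4⟩)) h5

end Cfsg.Agent.P4n
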