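import Cfsg.Agent.P4n.Defs
import Cfsg.Agent.P4n.Qb
import Cfsg.Agent.ChS.Mi

/-! Elements with two cycles: the degree. See stubs/Cfsg/Agent/P4n/PLAN.md, section Qc. -/

set_option autoImplicit false

namespace Cfsg.Agent.P4n

open Equiv MulAction ChS

variable {α : Type} [Fintype α] [DecidableEq α]

namespace QcH

/-- the suborbit of colour `c` at `x` is monochromatic of colour `t` -/
def Cq {α : Type} (col : α → α → Bool) (x : α) (c t : Bool) : Prop :=
  ∀ y z, y ≠ x → z ≠ x → col x y = c → col x z = c → y ≠ z → col y z = t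

variable {C : Subgroup (Perm α)} {p : ℕ} {A : Set (Perm α)} {col : α → α → Bool}

theorem ne_of {a : Perm α} {x u : α} (hx : a x = x) (hu : u ∈ a.support) : u ≠ x := fun e =>
  Perm.mem_support.1 hu (e ▸ hx)

theorem pair (hG : IsPreprimitive C α) (h : Cfg2 C p A col) {x y x' y' : α} (hy : y ≠ x) (hy' : y' ≠ x')
    (e : col x y = col x' y') : ∃ g ∈ C, g x = x' ∧ g y = y' := by
  obtain ⟨⟨g, hg⟩, rfl⟩ := exists_smul_eq C x x'
  obtain ⟨k, hk, e2⟩ := h.tr (g x) (g y) y' (g.injective.ne hy) hy' ((h.inv g hg x y).trans e)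
  have h1 : Subgroup.closure {a | a ∈ A ∧ a (g x) = g x} ≤ C ⊓ stabilizer (Perm α) (g x) :=
    (Subgroup.closure_le _).2 fun a ha => ⟨(h.mem a ha.1).1, ha.2⟩
  exact ⟨k * g, C.mul_mem (h1 hk).1 hg, (h1 hk).2, e2⟩

theorem move (hG : IsPreprimitive C α) (h : Cfg2 C p A col) {x : α} {c t : Bool} (k : Cq col x c t) (x' : α) :
    Cq col x' c t := fun y z hy hz h1 h2 h3 => by
  obtain ⟨⟨g, hg⟩, rfl⟩ := exists_smul_eq C x' x
  exact (h.inv g hg y z).symm.trans (k _ _ (g.injective.ne hy) (g.injective.ne hz) ((h.inv g hg _ _).trans h1)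
    ((h.inv g hg _ _).trans h2) (g.injective.ne h3))

theorem two (hp : p.Prime) (h : Cfg2 C p A col) {a : Perm α} (ha : a ∈ A) {x : α} (hx : a x = x) (c : Bool) :
    ∃ y ∈ a.support, ∃ z ∈ a.support, col x y = c ∧ col x z = c ∧ y ≠ z := by
  obtain ⟨y, hy, z, hz, e⟩ := Finset.one_lt_card.1 ((h.card_cyc hp ha hx c).symm ▸ hp.one_lt)
  rw [Finset.mem_filter] at hy hz
  exact ⟨y, hy.1, z, hz.1, hy.2, hz.2, e⟩

theorem no (hp : p.Prime) (hG : IsPreprimitive C α) (h : Cfg2 C p A col) {x : α} {c : Bool} : ¬ Cq col x c c := by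
  intro k
  obtain ⟨a, ha, hx⟩ := h.ex x
  obtain ⟨y, hy, z, hz, h1, h2, h3⟩ := two hp h ha hx c
  have h4 := k y z (ne_of hx hy) (ne_of hx hz) h1 h2 h3
  have h5 := k z y (ne_of hx hz) (ne_of hx hy) h2 h1 h3.symm
  have sy : ∀ u v, u = v ∨ col u v = c → v = u ∨ col v u = c := fun u v e => by
    by_cases e1 : v = u
    · exact .inl e1
    obtain ⟨g, hg, rfl, rfl⟩ := pair hG h h3.symm e1 (h4.trans (e.resolve_left (Ne.symm e1)).symm)
    exact .inr ((h.inv g hg _ _).trans h5)
  have all := rel_all_of_preprimitive hG (fun u v => u = v ∨ col u v = c)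
    ⟨fun _ => .inl rfl, sy _ _, fun {u v w} e e' => by
      by_cases e1 : u = v
      · exact e1 ▸ e'
      by_cases e2 : w = v
      · exact e2 ▸ e
      exact (em (u = w)).imp_right (move hG h k v u w e1 e2 ((sy _ _ e).resolve_left (Ne.symm e1))
        (e'.resolve_left (Ne.symm e2)))⟩
    (fun g hg u v e => e.imp (congrArg g) (h.inv g hg u v).trans) h3 (.inr h4)
  obtain ⟨w, hw, e⟩ := h.both a ha x hx (!c)
  rcases all x w with e1 | e1
  · exact ne_of hx hw e1.symm
  · rw [e1] at e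
    exact absurd e (by cases c <;> decide)

end QcH

open QcH in
theorem Cfg2.card_le {C : Subgroup (Perm α)} {p : ℕ} {A : Set (Perm α)} {col : α → α → Bool}
    (hp : p.Prime) (hG : IsPreprimitive C α) (h : Cfg2 C p A col) :
    Fintype.card α ≤ 2 * p + 1 := by
  by_contra hn
  obtain ⟨x⟩ := Fintype.card_pos_iff.1 (show 0 < Fintype.card α by omega)
  obtain ⟨c, hc⟩ : ∃ c, p < (Finset.univ.filter fun y => y ≠ x ∧ col x y = c).card := by
    by_contra k
    push Not at k
    have h1 : Finset.univ ⊆ insert x ((Finset.univ.filter fun y => y ≠ x ∧ col x y = true) ∪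
        Finset.univ.filter fun y => y ≠ x ∧ col x y = false) := fun y _ => by
      by_cases e : y = x <;> simp [e]
    have h2 := (Finset.card_le_card h1).trans ((Finset.card_insert_le _ _).trans
      (Nat.succ_le_succ (Finset.card_union_le _ _)))
    have := k true
    have := k false
    rw [Finset.card_univ] at h2
    omega
  obtain ⟨t, ht⟩ := h.hom hp x c hc
  obtain rfl : t = !c := by
    by_contra e
    exact no hp hG h (x := x) (c := c) ((show t = c by revert e; cases t <;> cases c <;> decide) ▸ ht)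
  obtain ⟨a, ha, hx⟩ := h.ex x
  obtain ⟨y, hy, hy'⟩ := Finset.exists_mem_notMem_of_card_lt_card ((h.card_cyc hp ha hx c).trans_lt hc)
  obtain ⟨-, y1, y2⟩ := Finset.mem_filter.1 hy
  have y3 : a y = y := Perm.notMem_support.1 fun e => hy' (Finset.mem_filter.2 ⟨e, y2⟩)
  obtain ⟨u, hu, u1⟩ := h.both a ha x hx c
  have u2 := ht y u y1 (ne_of hx hu) y2 u1 (ne_of y3 hu).symm
  have k1 : ∀ v ∈ a.support, col x v = !c → col y v = c := fun v hv e => by
    have := (h.cyc a ha x hx u hu v hv).symm.trans (h.cyc a ha y y3 u hu v hv)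
    rw [u1, u2, e] at this
    revert this
    cases col y v <;> cases c <;> decide
  have k2 : ∀ v ∈ a.support, ∀ w ∈ a.support, col x v = !c → col x w = !c → v ≠ w → col v w = !c :=
    fun v hv w hw e e' => move hG h ht y v w (ne_of y3 hv) (ne_of y3 hw) (k1 v hv e) (k1 w hw e')
  refine no hp hG h (x := x) (c := !c) ?_
  by_cases hc' : p < (Finset.univ.filter fun y => y ≠ x ∧ col x y = !c).card
  · obtain ⟨t, ht'⟩ := h.hom hp x _ hc'
    obtain ⟨v, hv, w, hw, h1, h2, h3⟩ := two hp h ha hx (!c)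
    exact (ht' v w (ne_of hx hv) (ne_of hx hw) h1 h2 h3).symm.trans (k2 v hv w hw h1 h2 h3) ▸ ht'
  · have e : (a.support.filter fun u => col x u = !c) = Finset.univ.filter fun y => y ≠ x ∧ col x y = !c :=
      Finset.eq_of_subset_of_card_le (fun v hv => by
        obtain ⟨h1, h2⟩ := Finset.mem_filter.1 hv
        exact Finset.mem_filter.2 ⟨Finset.mem_univ _, ne_of hx h1, h2⟩) (by rw [h.card_cyc hp ha hx]; omega)
    intro v w h1 h2 h3 h4
    exact k2 v (Finset.mem_filter.1 (e.ge (Finset.mem_filter.2 ⟨Finset.mem_univ _, h1, h3⟩))).1 w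
      (Finset.mem_filter.1 (e.ge (Finset.mem_filter.2 ⟨Finset.mem_univ _, h2, h4⟩))).1 h3 h4

end Cfsg.Agent.P4n
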