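import Cfsg.Agent.P4n.Defs
import Cfsg.Agent.P4n.MinU
import Cfsg.Agent.P4n.Qa
import Cfsg.Agent.P4n.Qc
import Cfsg.Agent.ChS.Uni

/-! Order of a primitive, not 2-transitive group. See stubs/Cfsg/Agent/P4n/PLAN.md, section Uk. -/

set_option autoImplicit false

namespace Cfsg.Agent.P4n

open Equiv MulAction ChS

variable {α : Type} [Fintype α] [DecidableEq α]

namespace UkH

theorem vf_ok {p : ℕ} (hp : p.Prime) (f m : ℕ) : padicValNat p m.factorial ≤ vf p f m := by
  have := Fact.mk hp
  induction f generalizing m with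
  | zero =>
    change _ ≤ m / (p - 1)
    rw [Nat.le_div_iff_mul_le (by have := hp.two_le; omega), mul_comm, sub_one_mul_padicValNat_factorial]
    exact Nat.sub_le _ _
  | succ f ih =>
    have h : padicValNat p m.factorial = padicValNat p (m / p).factorial + m / p := by
      conv_lhs => rw [← Nat.div_add_mod m p]
      rw [padicValNat_factorial_mul_add _ (Nat.mod_lt _ hp.pos), padicValNat_factorial_mul]
    change _ ≤ if m < p then 0 else m / p + vf p f (m / p)
    rw [h]
    split_ifs with h1
    · simp [Nat.div_eq_of_lt h1]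
    · have := ih (m / p)
      omega

theorem num {n M E s : ℕ} {f : Fin s → ℕ} (hM : 0 < M) (hn : ∑ i, f i ≤ n) (h1 : ∀ i, E ≤ f i)
    (h2 : ∀ i j, i ≠ j → M ≤ f i ∨ M ≤ f j) : s ≤ (n + M - E) / M := by
  rcases s with _ | s
  · exact Nat.zero_le _
  obtain ⟨i, -, hi⟩ := Finset.exists_min_image Finset.univ f Finset.univ_nonempty
  have h3 : s * M ≤ ∑ j ∈ Finset.univ.erase i, f j := by
    have := Finset.card_nsmul_le_sum (Finset.univ.erase i) f M fun j hj =>
      (h2 i j (Finset.ne_of_mem_erase hj).symm).elim (fun h => h.trans (hi j (Finset.mem_univ _))) id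
    simpa using this
  rw [← Finset.add_sum_erase _ _ (Finset.mem_univ i)] at hn
  rw [Nat.le_div_iff_mul_le hM, add_mul, one_mul]
  have := h1 i
  omega

theorem key {C : Subgroup (Perm α)} (hC : TwoClosed C) (hG : IsPreprimitive C α)
    (h2 : ¬ IsMultiplyPretransitive C α 2) {k : ℕ} (hk : Adm (Fintype.card α) k) {p : ℕ} (hp : p.Prime)
    (hn : p ≤ Fintype.card α) :
    (Nat.card C).factorization p ≤ (if p = Fintype.card α then 1 else 0) +
      (if p = Fintype.card α / 2 then 1 else 0) + ex0 (Fintype.card α) k p := by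
  have := Fact.mk hp
  obtain ⟨S⟩ : Nonempty (Sylow p C) := inferInstance
  have hP : IsPGroup p ((S : Subgroup C).map C.subtype) := S.isPGroup'.map _
  have hc : Nat.card ((S : Subgroup C).map C.subtype) = p ^ (Nat.card C).factorization p := by
    rw [Subgroup.card_map_of_injective C.subtype_injective, S.card_eq_multiplicity]
  obtain ⟨z, z1, z2, z3⟩ := exists_z hp _ hP
  obtain ⟨s, c, h3, h4, h5⟩ := card_Qz_le hp C _ hC (Subgroup.map_subtype_le _) z z1 z2
  have h6 := (card_dvd_Qz hp _ z z1 z2 z3).trans (Nat.mul_dvd_mul_right h3 _)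
  rw [hc, padicValNat_dvd_iff_le (mul_ne_zero (pow_ne_zero _ hp.ne_zero) (Nat.factorial_ne_zero _)),
    padicValNat.mul (pow_ne_zero _ hp.ne_zero) (Nat.factorial_ne_zero _), padicValNat.prime_pow] at h6
  have h7 : ∑ i, (c i).support.card ≤ Fintype.card α := by
    rw [← Finset.card_biUnion fun i _ j _ hij => h5 i j hij]
    exact Finset.card_le_univ _
  have hv := vf_ok hp 20 (Fintype.card α / p)
  have p2 := hp.two_le
  have hd : ∀ i, ∃ m, (c i).support.card = p * (m + 1) := fun i => by
    obtain ⟨m, hm⟩ := Perm.cycleType_prime_order (σ := c i) ((h4 i).2.symm ▸ hp)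
    exact ⟨m, by rw [← Perm.sum_cycleType, hm, (h4 i).2, Multiset.sum_replicate, smul_eq_mul, mul_comm]⟩
  have hs : ∀ e, (∀ i, e ≤ (c i).support.card) → Fintype.card α < 2 * e → s ≤ 1 := fun e he hl => by
    have h9 : s * e ≤ ∑ i, (c i).support.card := by
      simpa using Finset.card_nsmul_le_sum Finset.univ (fun i => (c i).support.card) e fun i _ => he i
    exact Nat.le_of_lt_succ (Nat.lt_of_mul_lt_mul_right (a := e) (by omega))
  change _ ≤ _ + (vf p 20 (Fintype.card α / p) + (Fintype.card α + MM p k - EE p k) / MM p k)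
  generalize ht : (Fintype.card α + MM p k - EE p k) / MM p k = t
  by_cases h8 : p = Fintype.card α
  · have := hs p (fun i => by
      obtain ⟨m, hm⟩ := hd i
      exact hm ▸ Nat.le_mul_of_pos_right _ m.succ_pos) (by omega)
    rw [if_pos h8]
    omega
  have h9 := fun i => two_mul_le_support hp hG h2 (lt_of_le_of_ne hn h8) (h4 i).1 (h4 i).2
  by_cases h10 : p = Fintype.card α / 2
  · have := hs _ h9 (by omega)
    rw [if_pos h10]
    omega
  have hr : ∀ i, rnd p k ≤ (c i).support.card := fun i => by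
    obtain ⟨m, hm⟩ := hd i
    have := min_uni hG h2 hk (h4 i).1 fun e => hp.ne_one (by rw [← (h4 i).2, e, orderOf_one])
    rw [hm] at this ⊢
    exact Nat.mul_le_mul_left _ (Nat.div_lt_of_lt_mul this)
  have := num (M := MM p k) (E := EE p k) (lt_max_of_lt_left (Nat.mul_pos hp.pos hp.pos)) h7 (fun i => by
      rcases p2.eq_or_lt with rfl | p3
      · exact min_le_of_right_le (max_le (h9 i) (hr i))
      refine min_le_of_left_le (max_le ?_ (hr i))
      obtain ⟨m, hm⟩ := hd i
      have h11 : (c i).support.card ≠ 2 * p := fun e => by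
        have h12 : (c i).support.card ≤ Fintype.card α := Finset.card_le_univ _
        obtain ⟨A, col, h⟩ := exists_cfg hp p3 hC hG h2 (by omega) (h4 i).1 (h4 i).2 e
        have := h.card_le hp hG
        omega
      have h12 := h9 i
      rw [hm, mul_comm p] at h11 h12 ⊢
      have h13 := Nat.le_of_mul_le_mul_right h12 hp.pos
      exact Nat.mul_le_mul_right _ (h13.lt_of_ne fun e => h11 (by rw [e])))
    fun i j hij => by
      by_contra h
      push Not at h
      refine no_disjoint_small hp hC hG h2 (h4 i).1 (h4 j).1 (h4 i).2 (h4 j).2 ?_ ?_ (h5 i j hij)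
      · exact (lt_max_iff.1 h.1).elim (fun l => by rwa [sq]) fun l => absurd (hr i) l.not_ge
      · exact (lt_max_iff.1 h.2).elim (fun l => by rwa [sq]) fun l => absurd (hr j) l.not_ge
  rw [ht] at this
  omega

theorem prod_ite {n m : ℕ} (h : m ≤ n) :
    ∏ p ∈ (Finset.range (n + 1)).filter Nat.Prime, p ^ (if p = m then 1 else 0) = if m.Prime then m else 1 := by
  simp only [pow_ite, pow_one, pow_zero, Finset.prod_ite_eq', Finset.mem_filter, Finset.mem_range,
    Nat.lt_succ_of_le h, true_and]

end UkH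

open UniH in
theorem uni_card (H : Subgroup (Perm α)) (hG : IsPreprimitive H α)
    (h2 : ¬ IsMultiplyPretransitive H α 2) {k : ℕ} (hk : Adm (Fintype.card α) k) :
    Nat.card H ≤ Ub (Fintype.card α) k := by
  have hle : H ≤ cl H := fun g hg x y => ⟨g, hg, rfl, rfl⟩
  have hC : TwoClosed (cl H) := fun σ hσ x y => by
    obtain ⟨g, hg, h3, h4⟩ := hσ x y
    obtain ⟨k, hk, h5, h6⟩ := hg x y
    exact ⟨k, hk, h5.trans h3, h6.trans h4⟩
  have hP : IsPreprimitive (cl H) α := IsPreprimitive.of_surjective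
    (f := (⟨id, fun _ _ => rfl⟩ : α →ₑ[Subgroup.inclusion hle] α)) Function.surjective_id
  have h3 : ¬ IsMultiplyPretransitive (cl H) α 2 := fun h => h2 (is_two_pretransitive_iff.2 fun hab hcd => by
    obtain ⟨g, h4, h5⟩ := is_two_pretransitive_iff.1 h hab hcd
    obtain ⟨k, hk, h6, h7⟩ := g.2 _ _
    exact ⟨⟨k, hk⟩, h6.trans h4, h7.trans h5⟩)
  refine (Subgroup.card_le_of_le hle).trans ?_
  have h4 : (Nat.card (cl H)).factorization.support ⊆ (Finset.range (Fintype.card α + 1)).filter Nat.Prime :=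
    fun p hp => by
      have h5 := Nat.prime_of_mem_primeFactors hp
      have h6 := (Nat.dvd_of_mem_primeFactors hp).trans (cl H).card_subgroup_dvd_card
      rw [Nat.card_perm, Nat.card_eq_fintype_card, h5.dvd_factorial] at h6
      exact Finset.mem_filter.2 ⟨Finset.mem_range.2 (Nat.lt_succ_of_le h6), h5⟩
  rw [← Nat.prod_factorization_pow_eq_self (Nat.card_pos (α := cl H)).ne',
    Finsupp.prod_of_support_subset _ h4 _ fun _ _ => pow_zero _]
  refine (Finset.prod_le_prod' fun p hp => Nat.pow_le_pow_right (Finset.mem_filter.1 hp).2.pos (UkH.key hC hP h3 hk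
    (Finset.mem_filter.1 hp).2 (Nat.le_of_lt_succ (Finset.mem_range.1 (Finset.mem_filter.1 hp).1)))).trans_eq ?_
  simp only [pow_add, Finset.prod_mul_distrib]
  rw [UkH.prod_ite le_rfl, UkH.prod_ite (Nat.div_le_self _ _)]
  rfl

end Cfsg.Agent.P4n
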